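import Cfsg.Agent.Lib.SuzukiTwo.Structure
import Cfsg.Agent.Lib.Thompson.PGroup

/-!
A 2-group with exactly three involutions and an automorphism `ψ` of 3-power order permuting them
cyclically: `ψ` has order three.
-/

set_option autoImplicit false

namespace Cfsg.Agent.Lib.TwoRankTrans

open Cfsg.Agent.Lib.SuzukiTwo (Omega)
open scoped commutatorElement

universe u

/-- Three involutions, all central, cyclically permuted by `ψ` of 3-power order. -/
structure Setup (T : Type u) [Group T] (ψ : MulAut T) : Prop where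
  pgroup : IsPGroup 2 T
  central : ∀ s : T, s * s = 1 → s ∈ Subgroup.center T
  card : Nat.card (Omega T) = 4
  moves : ∀ s : T, s * s = 1 → ψ s = s → s = 1
  cube : ∀ s : T, s * s = 1 → ψ (ψ (ψ s)) = s
  ord : ∃ a : ℕ, ψ ^ 3 ^ a = 1

/-! ### Small groups with an automorphism of order nine -/

theorem exists_mul_three : ∀ d : Fin 9, d ≠ 0 → ∃ k : Fin 9, ((d : ℕ) * k) % 9 = 3 ∨
    ((d : ℕ) * k) % 9 = 6 := by decide

theorem pow_apply_fix {W : Type u} [Group W] (θ : MulAut W) {w : W} (h : θ w = w) (n : ℕ) :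
    (θ ^ n) w = w := by
  induction n with
  | zero => rfl
  | succ n ih => rw [pow_succ, MulAut.mul_apply, h, ih]

theorem cube_eq_one_of_nine {W : Type u} [Group W] [Finite W] (hW : Nat.card W ≤ 32)
    (h2 : ∀ w : W, w * w = 1) (θ : MulAut W) (hθ : θ ^ 9 = 1) : θ ^ 3 = 1 := by
  classical
  by_contra hne
  have hinv : ∀ w : W, w⁻¹ = w := fun w => inv_eq_of_mul_eq_one_right (h2 w)
  have hcomm : ∀ a b : W, a * b = b * a := fun a b => by
    rw [← hinv (a * b), mul_inv_rev, hinv, hinv]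
  letI : CommGroup W := { (inferInstance : Group W) with mul_comm := hcomm }
  set χ := θ ^ 3 with hχ
  have hχ3 : ∀ w, χ (χ (χ w)) = w := fun w => by
    show (χ * χ * χ) w = w
    rw [hχ, ← pow_add, ← pow_add, hθ, MulAut.one_apply]
  let U : Subgroup W :=
    { carrier := {w | w * χ w * χ (χ w) = 1}
      one_mem' := by simp
      mul_mem' := fun {a b} ha hb => by
        show a * b * χ (a * b) * χ (χ (a * b)) = 1
        rw [map_mul, map_mul]
        calc a * b * (χ a * χ b) * (χ (χ a) * χ (χ b))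
            = (a * χ a * χ (χ a)) * (b * χ b * χ (χ b)) := by ac_rfl
          _ = 1 := by rw [show a * χ a * χ (χ a) = 1 from ha, show b * χ b * χ (χ b) = 1 from hb,
              one_mul]
      inv_mem' := fun {a} ha => by rw [hinv]; exact ha }
  have hU : ∀ w, w ∈ U ↔ w * χ w * χ (χ w) = 1 := fun _ => Iff.rfl
  have hfixU : ∀ w ∈ U, χ w = w → w = 1 := fun w hw h => by
    rw [hU, h, h, h2, one_mul] at hw
    exact hw
  have hmap : ∀ (n : ℕ), ∀ w ∈ U, (θ ^ n) w ∈ U := fun n w hw => by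
    rw [hU] at hw ⊢
    have hc : ∀ x, χ ((θ ^ n) x) = (θ ^ n) (χ x) := fun x => by
      rw [hχ, ← MulAut.mul_apply, ← MulAut.mul_apply, ← pow_add, ← pow_add, add_comm]
    rw [hc, hc, ← map_mul, ← map_mul, hw, map_one]
  obtain ⟨x, hx⟩ : ∃ x, χ x ≠ x := by
    by_contra! h
    exact hne (MulEquiv.ext h)
  set w := x * χ x with hw
  have hwU : w ∈ U := by
    rw [hU, hw, map_mul, map_mul, hχ3]
    calc x * χ x * (χ x * χ (χ x)) * (χ (χ x) * x)
        = x * (χ x * χ x) * (χ (χ x) * χ (χ x)) * x := by group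
      _ = 1 := by rw [h2, h2, mul_one, mul_one, h2]
  have hw1 : w ≠ 1 := fun h => hx (by
    rw [hw, mul_eq_one_iff_inv_eq, hinv] at h
    exact h.symm)
  have horb : ∀ u ∈ U, u ≠ 1 → ∀ i j : Fin 9, (θ ^ (i : ℕ)) u = (θ ^ (j : ℕ)) u → i = j := by
    intro u hu hu1 i j hij
    by_contra hne'
    wlog hle : (i : ℕ) ≤ j generalizing i j
    · exact this j i hij.symm (Ne.symm hne') (by omega)
    have hlt : (j : ℕ) - i < 9 := by omega
    have hd : (⟨(j : ℕ) - i, hlt⟩ : Fin 9) ≠ 0 := fun h => hne' (Fin.ext (by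
      have := congrArg Fin.val h
      simp only [Fin.val_zero] at this
      omega))
    have hfix : (θ ^ ((j : ℕ) - i)) u = u := by
      apply (θ ^ (i : ℕ)).injective
      rw [← MulAut.mul_apply, ← pow_add, Nat.add_sub_cancel' hle, hij]
    obtain ⟨k, hk⟩ := exists_mul_three _ hd
    have h3 := pow_apply_fix (θ ^ ((j : ℕ) - i)) hfix k
    rw [← pow_mul, ← Nat.mod_add_div (((j : ℕ) - i) * k) 9, pow_add, pow_mul θ 9, hθ, one_pow,
      mul_one] at h3
    rcases hk with hk | hk <;> simp only at hk <;> rw [hk] at h3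
    · exact hu1 (hfixU u hu h3)
    · have h6 : χ (χ u) = u := by
        rw [← MulAut.mul_apply, hχ, ← pow_add]; exact h3
      exact hu1 (hfixU u hu (by conv_lhs => rw [← h6]; rw [hχ3]))
  have hcount : ∀ {α : Type} [Finite α] (f : α → W), (∀ a, f a ∈ U) → Function.Injective f →
      Nat.card α ≤ Nat.card U := fun f hf hfi =>
    Nat.card_le_card_of_injective (fun a => (⟨f a, hf a⟩ : U))
      (fun a b h => hfi (congrArg Subtype.val h))
  have hf1 : ∀ i : Fin 9, (θ ^ (i : ℕ)) w ≠ 1 := fun i h => hw1 ((θ ^ (i : ℕ)).injective (by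
    rw [h, map_one]))
  have h10 : 10 ≤ Nat.card U := by
    have := hcount (fun o : Option (Fin 9) => o.elim 1 fun i => (θ ^ (i : ℕ)) w)
      (fun o => by cases o with | none => exact one_mem U | some i => exact hmap _ w hwU)
      (fun a b h => by
        cases a with
        | none => cases b with | none => rfl | some j => exact absurd h.symm (hf1 j)
        | some i => cases b with
          | none => exact absurd h (hf1 i)
          | some j => rw [horb w hwU hw1 i j h])
    simpa [Nat.card_eq_fintype_card] using this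
  haveI : Fact (Nat.Prime 2) := ⟨Nat.prime_two⟩
  have hUW : U ≠ ⊤ ∨ U = ⊤ := ne_or_eq U ⊤
  -- a second orbit
  obtain ⟨v, hvU, hv1, hv⟩ : ∃ v ∈ U, v ≠ 1 ∧ ∀ i : Fin 9, v ≠ (θ ^ (i : ℕ)) w := by
    by_contra! h
    have : Nat.card U ≤ 10 := by
      have := Nat.card_le_card_of_surjective
        (fun o : Option (Fin 9) => (o.elim 1 fun i => ⟨(θ ^ (i : ℕ)) w, hmap _ w hwU⟩ : U))
        (fun u => by
          by_cases hu : (u : W) = 1
          · exact ⟨none, Subtype.ext hu.symm⟩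
          · obtain ⟨i, hi⟩ := h u u.2 hu
            exact ⟨some i, Subtype.ext hi.symm⟩)
      simpa [Nat.card_eq_fintype_card] using this
    obtain ⟨k, hk⟩ := (IsPGroup.to_subgroup (G := W) (p := 2) (fun a => ⟨1, by rw [pow_one, sq, h2]⟩)
      U).exists_card_eq
    rw [hk] at this h10
    rcases lt_or_ge k 4 with h' | h'
    · have := Nat.pow_le_pow_right two_pos (show k ≤ 3 by omega); omega
    · have := Nat.pow_le_pow_right two_pos h'; omega
  have hf2 : ∀ i : Fin 9, (θ ^ (i : ℕ)) v ≠ 1 := fun i h => hv1 ((θ ^ (i : ℕ)).injective (by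
    rw [h, map_one]))
  have hdisj : ∀ i j : Fin 9, (θ ^ (i : ℕ)) v ≠ (θ ^ (j : ℕ)) w := fun i j h => by
    have h' := congrArg (θ ^ (9 - (i : ℕ))) h
    rw [← MulAut.mul_apply, ← MulAut.mul_apply, ← pow_add, ← pow_add,
      Nat.sub_add_cancel i.2.le, hθ, MulAut.one_apply,
      ← Nat.mod_add_div (9 - (i : ℕ) + j) 9, pow_add, pow_mul θ 9, hθ, one_pow, mul_one] at h'
    exact hv ⟨(9 - (i : ℕ) + j) % 9, Nat.mod_lt _ (by norm_num)⟩ h'
  have h19 : 19 ≤ Nat.card U := by
    have := hcount (fun o : Option (Fin 9 ⊕ Fin 9) =>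
        o.elim 1 (Sum.elim (fun i => (θ ^ (i : ℕ)) w) fun i => (θ ^ (i : ℕ)) v))
      (fun o => by
        rcases o with _ | i | i
        exacts [one_mem U, hmap _ w hwU, hmap _ v hvU])
      (fun a b h => by
        rcases a with _ | i | i <;> rcases b with _ | j | j <;>
          simp only [Option.elim, Sum.elim_inl, Sum.elim_inr] at h
        · rfl
        · exact absurd h.symm (hf1 j)
        · exact absurd h.symm (hf2 j)
        · exact absurd h (hf1 i)
        · rw [horb w hwU hw1 i j h]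
        · exact absurd h.symm (hdisj j i)
        · exact absurd h (hf2 i)
        · exact absurd h (hdisj i j)
        · rw [horb v hvU hv1 i j h])
    simpa [Nat.card_eq_fintype_card] using this
  -- `U` is a proper subgroup or everything
  obtain ⟨k, hk⟩ := (IsPGroup.to_subgroup (G := W) (p := 2) (fun a => ⟨1, by rw [pow_one, sq, h2]⟩)
    U).exists_card_eq
  have h32 : Nat.card U = 32 := by
    have hle : Nat.card U ≤ 32 := (Subgroup.card_le_card_group U).trans hW
    rw [hk] at h19 hle ⊢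
    rcases lt_trichotomy k 5 with h' | rfl | h'
    · have := Nat.pow_le_pow_right two_pos (show k ≤ 4 by omega); omega
    · rfl
    · have := Nat.pow_le_pow_right two_pos (show 6 ≤ k by omega); omega
  -- fixed point free action of order three on a group of order 32
  haveI : Fact (Nat.Prime 3) := ⟨Nat.prime_three⟩
  letI : Fintype U := Fintype.ofFinite U
  let f : Function.End U := fun u => ⟨χ u, hmap 3 u u.2⟩
  have hf : f ^ 3 ^ 1 = 1 := funext fun u => Subtype.ext (hχ3 u)
  have hmod := Equiv.Perm.card_fixedPoints_modEq (p := 3) (n := 1) hf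
  rw [← Nat.card_eq_fintype_card, ← Nat.card_eq_fintype_card, h32] at hmod
  have h1 : Nat.card (Function.fixedPoints f) = 1 := by
    rw [Nat.card_eq_one_iff_unique]
    exact ⟨⟨fun a b => Subtype.ext (Subtype.ext ((hfixU _ a.1.2 (congrArg Subtype.val a.2)).trans
      (hfixU _ b.1.2 (congrArg Subtype.val b.2)).symm))⟩, ⟨⟨1, Subtype.ext (map_one χ)⟩⟩⟩
  rw [h1] at hmod
  exact absurd hmod (by decide)

theorem cube_eq_one_of_small {W : Type u} [Group W] [Finite W] (hW : Nat.card W ≤ 32)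
    (h2 : ∀ w : W, w * w = 1) :
    ∀ (a : ℕ) (θ : MulAut W), θ ^ 3 ^ a = 1 → θ ^ 3 = 1
  | 0, θ, h => by rw [pow_zero, pow_one] at h; rw [h, one_pow]
  | 1, θ, h => by rwa [pow_one] at h
  | a + 2, θ, h => by
    refine cube_eq_one_of_small hW h2 (a + 1) θ ?_
    rw [pow_succ, pow_mul]
    refine cube_eq_one_of_nine hW h2 _ ?_
    rw [← pow_mul, show 3 ^ a * 9 = 3 ^ (a + 2) by ring, h]

/-! ### The structure of the group -/

namespace Setup

variable {T : Type u} [Group T] [Finite T] {ψ : MulAut T} (S : Setup T ψ)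
include S

theorem mem_omega {s : T} : s ∈ Omega T ↔ s * s = 1 :=
  ⟨fun h => h.2, fun h => ⟨S.central s h, h⟩⟩

theorem fix_eq_one {x : T} (hx : ψ x = x) : x = 1 := by
  by_contra h1
  haveI : Fact (Nat.Prime 2) := ⟨Nat.prime_two⟩
  have hmem : x ∈ MonoidHom.eqLocus ψ.toMonoidHom (MonoidHom.id T) := hx
  have hne : MonoidHom.eqLocus ψ.toMonoidHom (MonoidHom.id T) ≠ ⊥ := fun h => h1 (by
    rwa [h, Subgroup.mem_bot] at hmem)
  obtain ⟨n, hn⟩ :=
    (S.pgroup.to_subgroup (MonoidHom.eqLocus ψ.toMonoidHom (MonoidHom.id T))).exists_card_eq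
  have hn0 : n ≠ 0 := fun h => hne (Subgroup.card_eq_one.1 (by rw [hn, h, pow_zero]))
  obtain ⟨z, hz⟩ := exists_prime_orderOf_dvd_card' (G := MonoidHom.eqLocus ψ.toMonoidHom (MonoidHom.id T))
    2 (hn ▸ dvd_pow_self 2 hn0)
  have hzz : (z : T) * z = 1 := by
    rw [← sq]; exact congrArg Subtype.val (hz ▸ pow_orderOf_eq_one z : z ^ 2 = 1)
  have : z = 1 := Subtype.ext (S.moves _ hzz z.2)
  rw [this, orderOf_one] at hz
  norm_num at hz

theorem omega_le {N : Subgroup T} (hN : ∀ x ∈ N, ψ x ∈ N) {s : T} (hs : s ∈ N) (hs2 : s * s = 1)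
    (hs1 : s ≠ 1) : Omega T ≤ N := by
  have hψs : ψ s * ψ s = 1 := by rw [← map_mul, hs2, map_one]
  let f : Fin 3 → (N ⊓ Omega T : Subgroup T) :=
    ![1, ⟨s, hs, S.mem_omega.2 hs2⟩, ⟨ψ s, hN s hs, S.mem_omega.2 hψs⟩]
  have hf : Function.Injective f := by
    intro i j h
    have h' := congrArg Subtype.val h
    have e1 : ψ s ≠ 1 := fun e => hs1 (ψ.injective (e.trans (map_one ψ).symm))
    have e2 : ψ s ≠ s := fun e => hs1 (S.moves s hs2 e)
    fin_cases i <;> fin_cases j <;>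
      simp [f, hs1, Ne.symm hs1, e1, Ne.symm e1, e2, Ne.symm e2] at h' ⊢
  have h3 := Nat.card_le_card_of_injective f hf
  rw [Nat.card_fin] at h3
  have hd : Nat.card (N ⊓ Omega T : Subgroup T) ∣ 4 :=
    S.card ▸ Subgroup.card_dvd_of_le inf_le_right
  have h4 : Nat.card (N ⊓ Omega T : Subgroup T) = 4 := by
    have := Nat.le_of_dvd (by norm_num) hd
    rcases (show Nat.card (N ⊓ Omega T : Subgroup T) = 3 ∨
      Nat.card (N ⊓ Omega T : Subgroup T) = 4 by omega) with e | e
    · rw [e] at hd; norm_num at hd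
    · exact e
  exact inf_eq_right.1 (Subgroup.eq_of_le_of_card_ge inf_le_right (by rw [h4, S.card]))

/-- Commuting of two elements spanning modulo a central subgroup. -/
theorem commute_of_four {M A : Subgroup T} (hM : ∀ m ∈ M, ψ m ∈ M)
    (hAc : ∀ a ∈ A, ∀ m ∈ M, a * m = m * a)
    (hcomm : ∀ x ∈ M, ∀ y ∈ M, ⁅x, y⁆ ∈ Omega T) {u v : T} (hu : u ∈ M) (hv : v ∈ M)
    (hcov : ∀ m ∈ M, m ∈ A ∨ u⁻¹ * m ∈ A ∨ v⁻¹ * m ∈ A ∨ (u * v)⁻¹ * m ∈ A) :
    u * v = v * u := by
  have hl : ∀ x ∈ M, ∀ y ∈ M, ∀ z ∈ M, ⁅x * y, z⁆ = ⁅x, z⁆ * ⁅y, z⁆ := fun x _ y hy z hz => by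
    have hc := (hcomm y hy z hz).1
    rw [Subgroup.mem_center_iff] at hc
    calc ⁅x * y, z⁆ = x * ⁅y, z⁆ * x⁻¹ * ⁅x, z⁆ := by simp only [commutatorElement_def]; group
      _ = ⁅y, z⁆ * ⁅x, z⁆ := by rw [hc x, mul_inv_cancel_right]
      _ = _ := (hc _).symm
  have hsq : ∀ x ∈ M, ∀ y ∈ M, ⁅x, y⁆ * ⁅x, y⁆ = 1 := fun x hx y hy => (hcomm x hx y hy).2
  have hsym : ∀ x ∈ M, ∀ y ∈ M, ⁅y, x⁆ = ⁅x, y⁆ := fun x hx y hy => by
    rw [← commutatorElement_inv]
    exact inv_eq_of_mul_eq_one_right (hsq x hx y hy)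
  set c := ⁅u, v⁆ with hc
  have huv : u * v ∈ M := mul_mem hu hv
  have hA0 : ∀ a ∈ A, ∀ z ∈ M, ⁅a, z⁆ = 1 := fun a ha z hz =>
    commutatorElement_eq_one_iff_mul_comm.2 (hAc a ha z hz)
  -- the commutator of any element with a basis element
  have hfirst : ∀ m ∈ M, ∀ z ∈ M, ⁅m, z⁆ = 1 ∨ ⁅m, z⁆ = ⁅u, z⁆ ∨ ⁅m, z⁆ = ⁅v, z⁆ ∨
      ⁅m, z⁆ = ⁅u * v, z⁆ := by
    intro m hm z hz
    have key : ∀ w ∈ M, w⁻¹ * m ∈ A → ⁅m, z⁆ = ⁅w, z⁆ := fun w hw h => by
      rw [show m = w * (w⁻¹ * m) by group, hl w hw _ (mul_mem (inv_mem hw) hm) z hz, hA0 _ h z hz,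
        mul_one]
    rcases hcov m hm with h | h | h | h
    · exact Or.inl (hA0 m h z hz)
    · exact Or.inr (Or.inl (key u hu h))
    · exact Or.inr (Or.inr (Or.inl (key v hv h)))
    · exact Or.inr (Or.inr (Or.inr (key _ huv h)))
  have hbasis : ∀ x ∈ M, x = u ∨ x = v ∨ x = u * v → ∀ y ∈ M, y = u ∨ y = v ∨ y = u * v →
      ⁅x, y⁆ = 1 ∨ ⁅x, y⁆ = c := by
    have e1 : ⁅v, u⁆ = c := hsym u hu v hv
    have e2 : ⁅u * v, u⁆ = c := by rw [hl u hu v hv u hu, commutatorElement_self, one_mul, e1]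
    have e3 : ⁅u * v, v⁆ = c := by rw [hl u hu v hv v hv, commutatorElement_self, mul_one]
    have e4 : ⁅u, u * v⁆ = c := by rw [hsym (u * v) huv u hu, e2]
    have e5 : ⁅v, u * v⁆ = c := by rw [hsym (u * v) huv v hv, e3]
    intro x _ hx y _ hy
    rcases hx with rfl | rfl | rfl <;> rcases hy with rfl | rfl | rfl <;>
      simp [e1, e2, e3, e4, e5, ← hc]
  have hval : ⁅ψ u, ψ v⁆ = 1 ∨ ⁅ψ u, ψ v⁆ = c := by
    have hψv := hM v hv
    have step : ∀ z ∈ M, z = u ∨ z = v ∨ z = u * v → ⁅ψ v, z⁆ = 1 ∨ ⁅ψ v, z⁆ = c := fun z hz hz' => by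
      rcases hfirst (ψ v) hψv z hz with h | h | h | h <;> rw [h]
      · exact Or.inl rfl
      · exact hbasis u hu (Or.inl rfl) z hz hz'
      · exact hbasis v hv (Or.inr (Or.inl rfl)) z hz hz'
      · exact hbasis _ huv (Or.inr (Or.inr rfl)) z hz hz'
    rcases hfirst (ψ u) (hM u hu) (ψ v) hψv with h | h | h | h <;> rw [h]
    · exact Or.inl rfl
    · rw [hsym (ψ v) hψv u hu]; exact step u hu (Or.inl rfl)
    · rw [hsym (ψ v) hψv v hv]; exact step v hv (Or.inr (Or.inl rfl))
    · rw [hsym (ψ v) hψv _ huv]; exact step _ huv (Or.inr (Or.inr rfl))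
  rw [← map_commutatorElement, ← hc] at hval
  apply commutatorElement_eq_one_iff_mul_comm.1
  rcases hval with h | h
  · exact ψ.injective (h.trans (map_one ψ).symm)
  · exact S.fix_eq_one h

/-- The automorphism `ψ` has order dividing three. -/
theorem pow_three : ψ ^ 3 = 1 := by
  classical
  haveI : Fact (Nat.Prime 2) := ⟨Nat.prime_two⟩
  set χ := ψ ^ 3 with hχdef
  obtain ⟨e, he⟩ := S.ord
  have hχ : Nat.Coprime (orderOf χ) 2 := by
    have h1 : orderOf χ ∣ 3 ^ e := orderOf_dvd_of_pow_eq_one (by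
      rw [hχdef, ← pow_mul, mul_comm, pow_mul, he, one_pow])
    exact Nat.Coprime.coprime_dvd_left h1 (Nat.Coprime.pow_left _ (by norm_num))
  have hχΩ : ∀ s : T, s * s = 1 → χ s = s := fun s hs => by
    show (ψ ^ 3) s = s
    rw [pow_succ, pow_succ, pow_one]
    exact S.cube s hs
  have hfix : ∀ g : T, χ (g⁻¹ * χ g) = g⁻¹ * χ g → χ g = g := fun g h =>
    Thompson.eq_self_of_coprime S.pgroup hχ h
  -- a maximal invariant abelian normal subgroup
  let P : Subgroup T → Prop := fun A => Omega T ≤ A ∧ A.Normal ∧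
    (∀ x ∈ A, ∀ y ∈ A, x * y = y * x) ∧ ∀ x ∈ A, ψ x ∈ A
  obtain ⟨A, ⟨hΩA, hAn, hAc, hAi⟩, hAmax⟩ := (Set.toFinite {A : Subgroup T | P A}).exists_maximal
    ⟨Omega T, le_rfl, ⟨fun s hs g => by
      rw [Subgroup.mem_center_iff.1 hs.1 g, mul_inv_cancel_right]; exact hs⟩,
      fun x hx y _ => (Subgroup.mem_center_iff.1 hx.1 y).symm,
      fun x hx => S.mem_omega.2 (by rw [← map_mul, hx.2, map_one])⟩
  have hAsurj : ∀ a ∈ A, ∃ b ∈ A, ψ b = a := fun a ha => by
    have hinj : Function.Injective (fun x : A => (⟨ψ x, hAi x x.2⟩ : A)) := fun x y h =>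
      Subtype.ext (ψ.injective (congrArg Subtype.val h))
    obtain ⟨b, hb⟩ := hinj.bijective_of_finite.2 ⟨a, ha⟩
    exact ⟨b, b.2, congrArg Subtype.val hb⟩
  have hA2 : ∀ a ∈ A, χ a = a := by
    suffices h : ∀ k, ∀ a ∈ A, a ^ 2 ^ k = 1 → χ a = a from fun a ha => by
      obtain ⟨k, hk⟩ := S.pgroup a
      exact h k a ha hk
    intro k
    induction k with
    | zero => intro a _ ha; rw [pow_zero, pow_one] at ha; rw [ha, map_one]
    | succ k ih =>
      intro a ha hak
      have h2 := ih (a * a) (mul_mem ha ha) (by rw [← sq, ← pow_mul, ← pow_succ']; exact hak)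
      have hχa : χ a ∈ A := by
        rw [hχdef, pow_succ, pow_succ, pow_one]
        exact hAi _ (hAi _ (hAi a ha))
      refine hfix a (hχΩ _ ?_)
      calc a⁻¹ * χ a * (a⁻¹ * χ a) = a⁻¹ * (χ a * a⁻¹) * χ a := by group
        _ = a⁻¹ * (a⁻¹ * χ a) * χ a := by rw [hAc _ hχa _ (inv_mem ha)]
        _ = (a * a)⁻¹ * (χ a * χ a) := by group
        _ = 1 := by rw [← map_mul, h2, inv_mul_cancel]
  -- the next layer
  let M : Subgroup T :=
    { carrier := {y | (∀ a ∈ A, a * y = y * a) ∧ y * y ∈ A ∧ ∀ t, ⁅t, y⁆ ∈ A}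
      one_mem' := ⟨fun a _ => by rw [mul_one, one_mul], by rw [one_mul]; exact one_mem A,
        fun t => by rw [commutatorElement_one_right]; exact one_mem A⟩
      mul_mem' := fun {y z} hy hz => by
        refine ⟨fun a ha => by rw [← mul_assoc, hy.1 a ha, mul_assoc, hz.1 a ha, mul_assoc], ?_,
          fun t => ?_⟩
        · rw [show y * z * (y * z) = y * y * ⁅y⁻¹, z⁆ * (z * z) by
            simp only [commutatorElement_def]; group]
          exact mul_mem (mul_mem hy.2.1 (hz.2.2 _)) hz.2.1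
        · rw [show ⁅t, y * z⁆ = ⁅t, y⁆ * (y * ⁅t, z⁆ * y⁻¹) by
            simp only [commutatorElement_def]; group, ← hy.1 _ (hz.2.2 t), mul_inv_cancel_right]
          exact mul_mem (hy.2.2 t) (hz.2.2 t)
      inv_mem' := fun {y} hy => by
        refine ⟨fun a ha => ?_, ?_, fun t => ?_⟩
        · calc a * y⁻¹ = y⁻¹ * (y * a) * y⁻¹ := by group
            _ = y⁻¹ * (a * y) * y⁻¹ := by rw [hy.1 a ha]
            _ = y⁻¹ * a := by group
        · rw [← mul_inv_rev]; exact inv_mem hy.2.1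
        · rw [show ⁅t, y⁻¹⁆ = y⁻¹ * ⁅t, y⁆⁻¹ * y by simp only [commutatorElement_def]; group]
          simpa using hAn.conj_mem _ (inv_mem (hy.2.2 t)) y⁻¹ }
  have hMmem : ∀ y, y ∈ M ↔ (∀ a ∈ A, a * y = y * a) ∧ y * y ∈ A ∧ ∀ t, ⁅t, y⁆ ∈ A := fun _ => Iff.rfl
  have hAM : A ≤ M := fun a ha => ⟨fun b hb => hAc b hb a ha, mul_mem ha ha, fun t => by
    rw [commutatorElement_def]; exact mul_mem (hAn.conj_mem a ha t) (inv_mem ha)⟩
  have hMn : M.Normal := ⟨fun y hy g => by
    rw [show g * y * g⁻¹ = ⁅g, y⁆ * y by simp only [commutatorElement_def]; group]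
    exact mul_mem (hAM (hy.2.2 g)) hy⟩
  have hMi : ∀ y ∈ M, ψ y ∈ M := fun y hy => by
    refine ⟨fun a ha => ?_, by rw [← map_mul]; exact hAi _ hy.2.1, fun t => ?_⟩
    · obtain ⟨b, hb, rfl⟩ := hAsurj a ha
      rw [← map_mul, ← map_mul, hy.1 b hb]
    · obtain ⟨t, rfl⟩ := ψ.surjective t
      rw [← map_commutatorElement]
      exact hAi _ (hy.2.2 t)
  have hMcomm : ∀ x ∈ M, ∀ y ∈ M, ⁅x, y⁆ ∈ Omega T := fun x hx y hy => by
    rw [S.mem_omega]
    have h1 : ⁅x, y * y⁆ = 1 :=
      commutatorElement_eq_one_iff_mul_comm.2 (hx.1 _ hy.2.1).symm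
    rw [show ⁅x, y * y⁆ = ⁅x, y⁆ * (y * ⁅x, y⁆ * y⁻¹) by simp only [commutatorElement_def]; group,
      ← hy.1 _ (hy.2.2 x), mul_inv_cancel_right] at h1
    exact h1
  have hgrow : ∀ D : Subgroup T, D.Normal → ¬ D ≤ A → (∀ a ∈ A, ∀ d ∈ D, a * d = d * a) →
      ∃ x ∈ D, x ∈ M ∧ x ∉ A := by
    intro D hDn hDA hDc
    have hne : (D.map (QuotientGroup.mk' A)) ≠ ⊥ := fun h => hDA fun d hd => by
      rw [Subgroup.map_eq_bot_iff, QuotientGroup.ker_mk'] at h
      exact h hd
    haveI := hDn.map _ (QuotientGroup.mk'_surjective A)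
    obtain ⟨z, ⟨x, hx, rfl⟩, hzc, hzo⟩ :=
      Thompson.exists_central_order_p (p := 2) (S.pgroup.to_quotient A) hne
    refine ⟨x, hx, ⟨fun a ha => hDc a ha x hx, ?_, fun t => ?_⟩, fun hxA => ?_⟩
    · have h := pow_orderOf_eq_one (QuotientGroup.mk' A x)
      rw [hzo, sq, ← map_mul, QuotientGroup.mk'_apply, QuotientGroup.eq_one_iff] at h
      exact h
    · rw [← QuotientGroup.eq_one_iff, ← QuotientGroup.mk'_apply, map_commutatorElement,
        commutatorElement_eq_one_iff_mul_comm]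
      exact Subgroup.mem_center_iff.1 hzc _
    · rw [QuotientGroup.mk'_apply, (QuotientGroup.eq_one_iff x).2 hxA, orderOf_one] at hzo
      norm_num at hzo
  have habM : (∀ x ∈ M, ∀ y ∈ M, x * y = y * x) → M = A := fun h =>
    le_antisymm (hAmax ⟨hΩA.trans hAM, hMn, h, hMi⟩ hAM) hAM
  by_cases hMA : M = A
  · -- self-centralizing
    have hC : Subgroup.centralizer (A : Set T) ≤ A := by
      by_contra h
      obtain ⟨x, -, hxM, hxA⟩ := hgrow _
        (by haveI := hAn; infer_instance) h (fun a ha d hd => Subgroup.mem_centralizer_iff.1 hd a ha)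
      exact hxA (hMA ▸ hxM)
    refine MulEquiv.ext fun g => hfix g (hA2 _ (hC (Subgroup.mem_centralizer_iff.2 fun a ha => ?_)))
    have h1 : χ (g * a * g⁻¹) = g * a * g⁻¹ := hA2 _ (hAn.conj_mem a ha g)
    rw [map_mul, map_mul, map_inv, hA2 a ha] at h1
    calc a * (g⁻¹ * χ g) = g⁻¹ * (g * a * g⁻¹) * χ g := by group
      _ = g⁻¹ * (χ g * a * (χ g)⁻¹) * χ g := by rw [h1]
      _ = _ := by group
  -- otherwise `A` is elementary
  have hMA' : ∃ x ∈ M, x ∉ A := by
    by_contra! h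
    exact hMA (le_antisymm h hAM)
  have hAΩ : A = Omega T := by
    refine le_antisymm (fun a ha => S.mem_omega.2 ?_) hΩA
    by_contra hne2
    -- squares
    let Q : Subgroup T :=
      { carrier := {x | ∃ b ∈ A, b * b = x}
        one_mem' := ⟨1, one_mem A, one_mul 1⟩
        mul_mem' := by
          rintro _ _ ⟨b, hb, rfl⟩ ⟨c, hc, rfl⟩
          refine ⟨b * c, mul_mem hb hc, ?_⟩
          calc b * c * (b * c) = b * (c * b) * c := by group
            _ = b * (b * c) * c := by rw [hAc c hc b hb]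
            _ = b * b * (c * c) := by group
        inv_mem' := by
          rintro _ ⟨b, hb, rfl⟩
          exact ⟨b⁻¹, inv_mem hb, by rw [mul_inv_rev]⟩ }
    haveI hQn : Q.Normal := ⟨by
      rintro _ ⟨b, hb, rfl⟩ g
      exact ⟨g * b * g⁻¹, hAn.conj_mem b hb g, by group⟩⟩
    have hQi : ∀ x ∈ Q, ψ x ∈ Q := by
      rintro _ ⟨b, hb, rfl⟩
      exact ⟨ψ b, hAi b hb, (map_mul ψ b b).symm⟩
    have hΩQ : Omega T ≤ Q := by
      have hne : Q ≠ ⊥ := fun h => hne2 (by
        have : a * a ∈ Q := ⟨a, ha, rfl⟩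
        rwa [h, Subgroup.mem_bot] at this)
      obtain ⟨n, hn⟩ := (S.pgroup.to_subgroup Q).exists_card_eq
      have hn0 : n ≠ 0 := fun h => hne (Subgroup.card_eq_one.1 (by rw [hn, h, pow_zero]))
      obtain ⟨z, hz⟩ := exists_prime_orderOf_dvd_card' (G := Q) 2 (hn ▸ dvd_pow_self 2 hn0)
      refine S.omega_le hQi z.2 ?_ fun h => ?_
      · rw [← sq]; exact congrArg Subtype.val (hz ▸ pow_orderOf_eq_one z : z ^ 2 = 1)
      · rw [show z = 1 from Subtype.ext h, orderOf_one] at hz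
        norm_num at hz
    let μ : M →* T ⧸ Q := MonoidHom.mk' (fun m => (((m : T) * m : T) : T ⧸ Q)) fun x y => by
      have e : ((x * y : M) : T) * ((x * y : M) : T) =
          (x : T) * x * ⁅(x : T)⁻¹, (y : T)⁆ * ((y : T) * y) := by
        simp only [Subgroup.coe_mul, commutatorElement_def]; group
      rw [e, QuotientGroup.mk_mul, QuotientGroup.mk_mul,
        (QuotientGroup.eq_one_iff _).2 (hΩQ (hMcomm _ (inv_mem x.2) _ y.2)), mul_one]
    have hker : μ.ker = A.subgroupOf M := by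
      ext m
      rw [MonoidHom.mem_ker, Subgroup.mem_subgroupOf]
      show ((((m : T) * m : T)) : T ⧸ Q) = 1 ↔ _
      rw [QuotientGroup.eq_one_iff]
      refine ⟨?_, fun hm => ⟨m, hm, rfl⟩⟩
      rintro ⟨b, hb, hbm⟩
      have hΩ : (m : T) * b⁻¹ ∈ Omega T := S.mem_omega.2 (by
        calc (m : T) * b⁻¹ * ((m : T) * b⁻¹) = (m : T) * (b⁻¹ * m) * b⁻¹ := by group
          _ = (m : T) * ((m : T) * b⁻¹) * b⁻¹ := by rw [m.2.1 _ (inv_mem hb)]
          _ = ((m : T) * m) * (b * b)⁻¹ := by group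
          _ = 1 := by rw [hbm, mul_inv_cancel])
      have := mul_mem (hΩA hΩ) hb
      rwa [inv_mul_cancel_right] at this
    have hrange : μ.range ≤ A.map (QuotientGroup.mk' Q) := by
      rintro _ ⟨m, rfl⟩
      exact ⟨_, m.2.2.1, rfl⟩
    have hQA : Q ≤ A := by rintro _ ⟨b, hb, rfl⟩; exact mul_mem hb hb
    have hidx : Nat.card (A.map (QuotientGroup.mk' Q)) = 4 := by
      let sqh : A →* T := MonoidHom.mk' (fun b => (b : T) * b) fun b c => by
        show (b : T) * c * ((b : T) * c) = _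
        calc (b : T) * c * ((b : T) * c) = (b : T) * ((c : T) * b) * c := by group
          _ = (b : T) * ((b : T) * c) * c := by rw [hAc c c.2 b b.2]
          _ = _ := by group
      have h1 := sqh.ker.card_mul_index
      rw [Subgroup.index_ker] at h1
      have hr : sqh.range = Q := by
        ext x; exact ⟨fun ⟨b, hb⟩ => ⟨b, b.2, hb⟩, fun ⟨b, hb, hx⟩ => ⟨⟨b, hb⟩, hx⟩⟩
      have hk : Nat.card sqh.ker = 4 := by
        rw [← S.card, ← Nat.card_congr (Subgroup.subgroupOfEquivOfLe hΩA).toEquiv]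
        congr 2
        ext b
        rw [MonoidHom.mem_ker, Subgroup.mem_subgroupOf, S.mem_omega]
        rfl
      rw [hr, hk] at h1
      let π : A →* T ⧸ Q := (QuotientGroup.mk' Q).comp A.subtype
      have h2 := π.ker.card_mul_index
      rw [Subgroup.index_ker, show π.range = A.map (QuotientGroup.mk' Q) by
        rw [MonoidHom.range_comp, Subgroup.range_subtype]] at h2
      have hk2 : Nat.card π.ker = Nat.card Q := by
        rw [← Nat.card_congr (Subgroup.subgroupOfEquivOfLe hQA).toEquiv]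
        congr 2
        ext b
        rw [MonoidHom.mem_ker, Subgroup.mem_subgroupOf]
        exact QuotientGroup.eq_one_iff _
      rw [hk2, ← h1, mul_comm 4] at h2
      exact Nat.eq_of_mul_eq_mul_left Nat.card_pos h2
    have hquot : Nat.card (M ⧸ A.subgroupOf M) ≤ 4 := by
      rw [← Subgroup.index_eq_card, ← hker, Subgroup.index_ker, ← hidx]
      exact Subgroup.card_le_of_le hrange
    refine hMA (habM fun x hx y hy => ?_)
    by_cases hxy : x ∈ A ∨ y ∈ A ∨ x⁻¹ * y ∈ A
    · rcases hxy with h | h | h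
      · exact hy.1 x h
      · exact (hx.1 y h).symm
      · calc x * y = x * (x * (x⁻¹ * y)) := by group
          _ = x * ((x⁻¹ * y) * x) := by rw [hx.1 _ h]
          _ = y * x := by group
    push Not at hxy
    obtain ⟨hxA, hyA, hxyA⟩ := hxy
    haveI : (A.subgroupOf M).Normal := hAn.subgroupOf M
    let f : Fin 4 → M ⧸ A.subgroupOf M :=
      ![((1 : M) : M ⧸ A.subgroupOf M), ((⟨x, hx⟩ : M) : M ⧸ A.subgroupOf M),
        ((⟨y, hy⟩ : M) : M ⧸ A.subgroupOf M), ((⟨x * y, mul_mem hx hy⟩ : M) : M ⧸ A.subgroupOf M)]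
    have hxy' : x * y ∉ A := fun h => hxyA (by
      have h2 := mul_mem (inv_mem hx.2.1) h
      rwa [show (x * x)⁻¹ * (x * y) = x⁻¹ * y by group] at h2)
    have hf : Function.Injective f := by
      intro i j h
      fin_cases i <;> fin_cases j <;>
        simp only [f, Matrix.cons_val_zero, Matrix.cons_val_one, Matrix.cons_val, QuotientGroup.eq,
          Subgroup.mem_subgroupOf, Subgroup.coe_mul, InvMemClass.coe_inv, OneMemClass.coe_one,
          inv_one, one_mul, mul_one, inv_mem_iff, inv_mul_cancel_left, Fin.zero_eta, Fin.mk_one,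
          Fin.reduceFinMk] at h ⊢
      all_goals exfalso
      all_goals first
        | exact hxA h | exact hyA h | exact hxy' h | exact hxyA h
        | exact hxyA (by
            have h' := inv_mem h
            rwa [show (y⁻¹ * x)⁻¹ = x⁻¹ * y by group] at h')
        | exact hyA (by
            have h' := inv_mem h
            rwa [show ((x * y)⁻¹ * x)⁻¹ = x⁻¹ * (x * y) by group, inv_mul_cancel_left] at h')
        | exact hxA (by
            have h' := hAn.conj_mem _ h y
            rwa [show y * (y⁻¹ * (x * y)) * y⁻¹ = x by group] at h')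
        | exact hxA (by
            have h' := hAn.conj_mem _ (inv_mem h) y
            rwa [show y * ((x * y)⁻¹ * y)⁻¹ * y⁻¹ = x by group] at h')
    have hbij := (Nat.bijective_iff_injective_and_card f).2
      ⟨hf, le_antisymm (Nat.card_le_card_of_injective f hf) (by rw [Nat.card_fin]; exact hquot)⟩
    refine S.commute_of_four hMi (fun a ha m hm => hm.1 a ha) hMcomm hx hy fun m hm => ?_
    obtain ⟨i, hi⟩ := hbij.2 (⟨m, hm⟩ : M)
    fin_cases i <;>
      simp only [f, Matrix.cons_val_zero, Matrix.cons_val_one, Matrix.cons_val, QuotientGroup.eq,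
        Subgroup.mem_subgroupOf, Subgroup.coe_mul, InvMemClass.coe_inv, OneMemClass.coe_one,
        inv_one, one_mul, Fin.zero_eta, Fin.mk_one, Fin.reduceFinMk] at hi
    exacts [Or.inl hi, Or.inr (Or.inl hi), Or.inr (Or.inr (Or.inl hi)),
      Or.inr (Or.inr (Or.inr hi))]
  subst hAΩ
  have hM2 : ∀ y ∈ M, y * y ∈ Omega T := fun y hy => hy.2.1
  -- the bound
  have hsym : ∀ x ∈ M, ∀ y ∈ M, ⁅y, x⁆ = ⁅x, y⁆ := fun x hx y hy => by
    rw [← commutatorElement_inv]
    exact inv_eq_of_mul_eq_one_right (hMcomm x hx y hy).2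
  have hbil : ∀ x ∈ M, ∀ y ∈ M, ∀ z ∈ M, ⁅x, y * z⁆ = ⁅x, y⁆ * ⁅x, z⁆ := fun x hx y _ z hz => by
    have hc := Subgroup.mem_center_iff.1 (hMcomm x hx z hz).1 y
    rw [show ⁅x, y * z⁆ = ⁅x, y⁆ * (y * ⁅x, z⁆ * y⁻¹) by simp only [commutatorElement_def]; group,
      hc, mul_inv_cancel_right]
  have hsqmul : ∀ x ∈ M, ∀ y ∈ M, x * y * (x * y) = x * x * ⁅x, y⁆ * (y * y) := fun x hx y hy => by
    have hinv : ⁅x⁻¹, y⁆ = ⁅x, y⁆ := by
      have hc := (hMcomm x hx y hy)
      have e : ⁅x⁻¹, y⁆ = x⁻¹ * ⁅x, y⁆⁻¹ * x := by simp only [commutatorElement_def]; group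
      rw [e, show ⁅x, y⁆⁻¹ = ⁅x, y⁆ from inv_eq_of_mul_eq_one_right hc.2,
        Subgroup.mem_center_iff.1 hc.1 x⁻¹, inv_mul_cancel_right]
    rw [← hinv]
    simp only [commutatorElement_def]; group
  obtain ⟨x, hxM, hxΩ⟩ := hMA'
  have hs1 : x * x ≠ 1 := fun h => hxΩ (S.mem_omega.2 h)
  have hbound : Nat.card M ≤ 32 * Nat.card (Omega T) := by
    set s := x * x with hs
    have hsΩ : s ∈ Omega T := hM2 x hxM
    have hsS : Subgroup.zpowers s ≤ Omega T := Subgroup.zpowers_le.2 hsΩ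
    haveI : (Subgroup.zpowers s).Normal := ⟨fun n hn g => by
      rw [Subgroup.mem_center_iff.1 (hsS hn).1 g, mul_inv_cancel_right]; exact hn⟩
    have hs_card : Nat.card (Subgroup.zpowers s) = 2 := by
      rw [Nat.card_zpowers]
      exact orderOf_eq_prime (by rw [sq]; exact hsΩ.2) hs1
    let c : M →* T := MonoidHom.mk' (fun y => ⁅x, (y : T)⁆) fun y z => hbil x hxM y y.2 z z.2
    let K : Subgroup T := c.ker.map M.subtype
    have hKmem : ∀ y, y ∈ K ↔ y ∈ M ∧ ⁅x, y⁆ = 1 := fun y =>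
      ⟨fun ⟨z, hz, hzy⟩ => hzy ▸ ⟨z.2, hz⟩, fun ⟨h1, h2⟩ => ⟨⟨y, h1⟩, h2, rfl⟩⟩
    have hMK : Nat.card M ≤ 4 * Nat.card K := by
      have h := c.ker.card_mul_index
      rw [Subgroup.index_ker] at h
      rw [← h, mul_comm, show Nat.card K = Nat.card c.ker from
        Subgroup.card_map_of_injective M.subtype_injective]
      refine Nat.mul_le_mul_right _ ?_
      rw [← S.card]
      exact Subgroup.card_le_of_le (by rintro _ ⟨y, rfl⟩; exact hMcomm x hxM y y.2)
    let A' : Subgroup T := Omega T ⊔ Subgroup.zpowers x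
    have hΩn : (Omega T).Normal := hAn
    have hA'mem : ∀ y, y ∈ A' → y ∈ Omega T ∨ x⁻¹ * y ∈ Omega T := fun y hy => by
      obtain ⟨w, hw, _, ⟨i, rfl⟩, rfl⟩ := Subgroup.mem_sup_of_normal_left.1 hy
      show w * x ^ i ∈ _ ∨ x⁻¹ * (w * x ^ i) ∈ _
      obtain ⟨j, rfl | rfl⟩ := Int.even_or_odd' i
      · left
        rw [zpow_mul, show x ^ (2 : ℤ) = s from (zpow_two x).trans rfl]
        exact mul_mem hw (zpow_mem hsΩ j)
      · right
        rw [zpow_add, zpow_mul, show x ^ (2 : ℤ) = s from (zpow_two x).trans rfl, zpow_one,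
          show x⁻¹ * (w * (s ^ j * x)) = x⁻¹ * (w * s ^ j) * x by group,
          Subgroup.mem_center_iff.1 (mul_mem hw (zpow_mem hsΩ j)).1 x⁻¹, inv_mul_cancel_right]
        exact mul_mem hw (zpow_mem hsΩ j)
    have hA'card : Nat.card A' ≤ 2 * Nat.card (Omega T) := by
      have hsurj : ∀ y : A', ∃ p : Fin 2 × Omega T, x ^ (p.1 : ℕ) * (p.2 : T) = y := fun y => by
        rcases hA'mem y y.2 with h | h
        · exact ⟨(0, ⟨y, h⟩), by simp⟩
        · exact ⟨(1, ⟨_, h⟩), by simp⟩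
      have := Nat.card_le_card_of_injective (fun y : A' => (hsurj y).choose) fun y z h => by
        refine Subtype.ext ?_
        rw [← (hsurj y).choose_spec, ← (hsurj z).choose_spec]
        simp only at h
        rw [h]
      rwa [Nat.card_prod, Nat.card_fin] at this
    have hA'ab : ∀ y ∈ A', ∀ z ∈ A', ⁅y, z⁆ = 1 := by
      have hcomm : ∀ y ∈ A', x * y = y * x := fun y hy => by
        rcases hA'mem y hy with h | h
        · exact Subgroup.mem_center_iff.1 h.1 x
        · calc x * y = x * (x * (x⁻¹ * y)) := by group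
            _ = x * ((x⁻¹ * y) * x) := by rw [Subgroup.mem_center_iff.1 h.1 x]
            _ = y * x := by group
      intro y hy z hz
      rw [commutatorElement_eq_one_iff_mul_comm]
      rcases hA'mem y hy with h | h
      · exact (Subgroup.mem_center_iff.1 h.1 z).symm
      · calc y * z = x * ((x⁻¹ * y) * z) := by group
          _ = x * (z * (x⁻¹ * y)) := by rw [Subgroup.mem_center_iff.1 h.1 z]
          _ = (x * z) * (x⁻¹ * y) := by group
          _ = (z * x) * (x⁻¹ * y) := by rw [hcomm z hz]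
          _ = z * y := by group
    -- squares outside `A'` avoid `⟨s⟩`
    have hK1 : ∀ u ∈ K, u * u ∈ Subgroup.zpowers s → u ∈ A' := by
      intro u hu hz
      obtain ⟨huM, hxu⟩ := (hKmem u).1 hu
      rcases (show u * u = 1 ∨ u * u = s by
        obtain ⟨i, hi⟩ := hz
        obtain ⟨j, rfl | rfl⟩ := Int.even_or_odd' i
        · left; rw [← hi]; show s ^ (2 * j) = 1
          rw [zpow_mul, zpow_two, hsΩ.2, one_zpow]
        · right; rw [← hi]; show s ^ (2 * j + 1) = s
          rw [zpow_add, zpow_mul, zpow_two, hsΩ.2, one_zpow, one_mul, zpow_one]) with h | h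
      · exact Subgroup.mem_sup_left (S.mem_omega.2 h)
      · have hxu2 : x * u * (x * u) = 1 := by
          rw [hsqmul x hxM u huM, hxu, mul_one, h, ← hs]; exact hsΩ.2
        have hΩxu : x * u ∈ A' := Subgroup.mem_sup_left (S.mem_omega.2 hxu2)
        have := mul_mem (inv_mem (Subgroup.mem_sup_right (Subgroup.mem_zpowers x) : x ∈ A')) hΩxu
        rwa [inv_mul_cancel_left] at this
    -- two classes
    let ρ : T →* T ⧸ Subgroup.zpowers s := QuotientGroup.mk' _
    have hρ2 : Nat.card ((Omega T).map ρ) = 2 := by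
      let π : Omega T →* T ⧸ Subgroup.zpowers s := ρ.comp (Omega T).subtype
      have h := π.ker.card_mul_index
      rw [Subgroup.index_ker, MonoidHom.range_comp, Subgroup.range_subtype, S.card] at h
      have hk : Nat.card π.ker = 2 := by
        rw [← hs_card, ← Nat.card_congr (Subgroup.subgroupOfEquivOfLe hsS).toEquiv]
        congr 2
        ext b
        rw [MonoidHom.mem_ker, Subgroup.mem_subgroupOf]
        exact QuotientGroup.eq_one_iff _
      rw [hk] at h
      omega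
    have hval : ∀ a b : T, a ∈ Omega T → b ∈ Omega T → a ∉ Subgroup.zpowers s →
        b ∉ Subgroup.zpowers s → ρ a = ρ b := by
      intro a b ha hb ha' hb'
      by_contra hne
      have : Function.Injective (![1, ⟨ρ a, a, ha, rfl⟩, ⟨ρ b, b, hb, rfl⟩] :
          Fin 3 → (Omega T).map ρ) := by
        have e1 : ρ a ≠ 1 := fun h => ha' ((QuotientGroup.eq_one_iff a).1 h)
        have e2 : ρ b ≠ 1 := fun h => hb' ((QuotientGroup.eq_one_iff b).1 h)
        intro i j h
        have h' := congrArg Subtype.val h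
        fin_cases i <;> fin_cases j <;>
          simp [e1, Ne.symm e1, e2, Ne.symm e2, hne, Ne.symm hne] at h' ⊢
      have := Nat.card_le_card_of_injective _ this
      rw [Nat.card_fin, hρ2] at this
      omega
    have hnoncomm : ∀ u ∈ K, ∀ v ∈ K, u ∉ A' → v ∉ A' → u * v ∉ A' →
        ⁅u, v⁆ ∉ Subgroup.zpowers s := by
      intro u hu v hv hu' hv' huv' hc
      have huM := ((hKmem u).1 hu).1
      have hvM := ((hKmem v).1 hv).1
      have huu : u * u ∉ Subgroup.zpowers s := fun h => hu' (hK1 u hu h)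
      have hvv : v * v ∉ Subgroup.zpowers s := fun h => hv' (hK1 v hv h)
      apply huv'
      refine hK1 _ (mul_mem hu hv) ?_
      rw [← QuotientGroup.eq_one_iff, hsqmul u huM v hvM, QuotientGroup.mk_mul, QuotientGroup.mk_mul,
        (QuotientGroup.eq_one_iff _).2 hc, mul_one,
        show ((u * u : T) : T ⧸ Subgroup.zpowers s) = ((v * v : T) : T ⧸ Subgroup.zpowers s) from
          hval _ _ (hM2 u huM) (hM2 v hvM) huu hvv, ← QuotientGroup.mk_mul,
        (hM2 v hvM).2, QuotientGroup.mk_one]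
    by_cases hKA : K ≤ A'
    · have := Subgroup.card_le_of_le hKA
      omega
    obtain ⟨u, huK, huA'⟩ := SetLike.not_le_iff_exists.1 hKA
    have huM := ((hKmem u).1 huK).1
    let d : K →* T ⧸ Subgroup.zpowers s := MonoidHom.mk' (fun v => ρ ⁅u, (v : T)⁆) fun v w => by
      show ρ ⁅u, (v : T) * w⁆ = _
      rw [hbil u huM v ((hKmem _).1 v.2).1 w ((hKmem _).1 w.2).1, map_mul]
    let L : Subgroup T := d.ker.map K.subtype
    have hKL : Nat.card K ≤ 2 * Nat.card L := by
      have h := d.ker.card_mul_index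
      rw [Subgroup.index_ker] at h
      rw [← h, mul_comm, show Nat.card L = Nat.card d.ker from
        Subgroup.card_map_of_injective K.subtype_injective, ← hρ2]
      refine Nat.mul_le_mul_right _ (Subgroup.card_le_of_le ?_)
      rintro _ ⟨v, rfl⟩
      exact ⟨_, hMcomm u huM v ((hKmem _).1 v.2).1, rfl⟩
    have hL : ∀ v ∈ L, v ∈ A' ∨ u⁻¹ * v ∈ A' := by
      rintro _ ⟨v, hv, rfl⟩
      show (v : T) ∈ A' ∨ u⁻¹ * (v : T) ∈ A'
      by_contra! h
      obtain ⟨h1, h2⟩ := h
      have hcs : ⁅u, (v : T)⁆ ∈ Subgroup.zpowers s := (QuotientGroup.eq_one_iff _).1 hv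
      refine hnoncomm u huK v v.2 huA' h1 (fun h3 => h2 ?_) hcs
      have e : u⁻¹ * (v : T) = (u * u)⁻¹ * (u * v) := by group
      rw [e]
      exact mul_mem (inv_mem (Subgroup.mem_sup_left (hM2 u huM))) h3
    have hLA : Nat.card L ≤ 2 * Nat.card A' := by
      have hsurj : ∀ v : L, ∃ p : Fin 2 × A', u ^ (p.1 : ℕ) * (p.2 : T) = v := fun v => by
        rcases hL v v.2 with h | h
        · exact ⟨(0, ⟨v, h⟩), by simp⟩
        · exact ⟨(1, ⟨_, h⟩), by simp⟩
      have := Nat.card_le_card_of_injective (fun v : L => (hsurj v).choose) fun v w h => by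
        refine Subtype.ext ?_
        rw [← (hsurj v).choose_spec, ← (hsurj w).choose_spec]
        simp only at h
        rw [h]
      rwa [Nat.card_prod, Nat.card_fin] at this
    omega
  -- the action on the layer
  haveI hΩMn : ((Omega T).subgroupOf M).Normal := hAn.subgroupOf M
  have hW : Nat.card (M ⧸ (Omega T).subgroupOf M) ≤ 32 := by
    have h := Subgroup.card_eq_card_quotient_mul_card_subgroup ((Omega T).subgroupOf M)
    rw [Nat.card_congr (Subgroup.subgroupOfEquivOfLe hAM).toEquiv, S.card] at h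
    rw [S.card] at hbound
    omega
  have hW2 : ∀ w : M ⧸ (Omega T).subgroupOf M, w * w = 1 := fun w =>
    QuotientGroup.induction_on w fun m => by
      rw [← QuotientGroup.mk_mul, QuotientGroup.eq_one_iff, Subgroup.mem_subgroupOf]
      exact hM2 m m.2
  let ψM : MulAut M := MulEquiv.ofBijective
    (MonoidHom.mk' (fun m : M => (⟨ψ m, hMi m m.2⟩ : M)) fun a b => Subtype.ext (map_mul ψ _ _))
    (Function.Injective.bijective_of_finite fun a b h => Subtype.ext (ψ.injective (congrArg Subtype.val h)))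
  have hψMpow : ∀ (k : ℕ) (m : M), ((ψM ^ k) m : T) = (ψ ^ k) m := by
    intro k
    induction k with
    | zero => intro m; rfl
    | succ k ih => intro m; rw [pow_succ', MulAut.mul_apply, pow_succ', MulAut.mul_apply, ← ih]; rfl
  have hmapΩ : ((Omega T).subgroupOf M).map ψM.toMonoidHom = (Omega T).subgroupOf M := by
    refine Subgroup.eq_of_le_of_card_ge ?_ ?_
    · rintro _ ⟨m, hm, rfl⟩
      exact hAi _ hm
    · exact (Subgroup.card_map_of_injective (f := ψM.toMonoidHom) ψM.injective).ge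
  let θ : MulAut (M ⧸ (Omega T).subgroupOf M) :=
    QuotientGroup.congr _ _ ψM hmapΩ
  have hθpow : ∀ (k : ℕ) (m : M), (θ ^ k) (m : M ⧸ (Omega T).subgroupOf M) =
      (((ψM ^ k) m : M) : M ⧸ (Omega T).subgroupOf M) := by
    intro k
    induction k with
    | zero => intro m; rfl
    | succ k ih => intro m; rw [pow_succ', MulAut.mul_apply, ih, pow_succ' ψM, MulAut.mul_apply]; rfl
  have hθ3 : θ ^ 3 = 1 := cube_eq_one_of_small hW hW2 e θ (MulEquiv.ext fun w =>
    QuotientGroup.induction_on w fun m => by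
      rw [hθpow]
      congr 1
      exact Subtype.ext (by rw [hψMpow, he]; rfl))
  have hχM : ∀ m ∈ M, χ m = m := fun m hm => by
    refine hfix m (hχΩ _ ?_)
    have h := congrArg (fun f : MulAut _ => f ((⟨m, hm⟩ : M) : M ⧸ (Omega T).subgroupOf M)) hθ3
    simp only [hθpow, MulAut.one_apply] at h
    rw [QuotientGroup.eq, Subgroup.mem_subgroupOf, Subgroup.coe_mul, InvMemClass.coe_inv,
      hψMpow] at h
    have h2 := inv_mem h
    rw [mul_inv_rev, inv_inv] at h2
    exact h2.2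
  have hCM : Subgroup.centralizer (M : Set T) ≤ Omega T := by
    by_contra h
    obtain ⟨y, hy, hyM, hyΩ⟩ := hgrow _ (by haveI := hMn; infer_instance) h
      (fun a ha d _ => (Subgroup.mem_center_iff.1 ha.1 d).symm)
    -- the centre of the layer
    let Z : Subgroup T := M ⊓ Subgroup.centralizer (M : Set T)
    have hZn : Z.Normal := by haveI := hMn; infer_instance
    have hΩZ : Omega T ≤ Z := fun w hw =>
      ⟨hAM hw, Subgroup.mem_centralizer_iff.2 fun m _ => Subgroup.mem_center_iff.1 hw.1 m⟩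
    have hZi : ∀ w ∈ Z, ψ w ∈ Z := fun w hw => by
      refine ⟨hMi w hw.1, Subgroup.mem_centralizer_iff.2 fun m hm => ?_⟩
      obtain ⟨m', hm'⟩ := ψM.surjective ⟨m, hm⟩
      have e : ψ (m' : T) = m := congrArg Subtype.val hm'
      rw [← e, ← map_mul, ← map_mul, Subgroup.mem_centralizer_iff.1 hw.2 m' m'.2]
    exact hyΩ (hAmax ⟨hΩZ, hZn,
      fun a ha b hb => (Subgroup.mem_centralizer_iff.1 ha.2 b hb.1).symm, hZi⟩ hΩZ ⟨hyM, hy⟩)
  refine MulEquiv.ext fun g => hfix g (hχΩ _ (hCM (Subgroup.mem_centralizer_iff.2 fun m hm => ?_)).2)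
  have h1 : χ (g * m * g⁻¹) = g * m * g⁻¹ := hχM _ (hMn.conj_mem m hm g)
  rw [map_mul, map_mul, map_inv, hχM m hm] at h1
  calc m * (g⁻¹ * χ g) = g⁻¹ * (g * m * g⁻¹) * χ g := by group
    _ = g⁻¹ * (χ g * m * (χ g)⁻¹) * χ g := by rw [h1]
    _ = _ := by group

end Setup

end Cfsg.Agent.Lib.TwoRankTrans
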