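import Cfsg.Agent.Lib.TwoRankTrans.Cube
import Cfsg.Agent.Lib.U3Sylow.Basic
import Cfsg.Agent.Lib.SuzukiTwo.Extension
import Cfsg.Agent.Lib.FusionEssential.AbelianTwo
import Cfsg.Prelude.Def_CaseTheorems

/-!
2-groups of rank two with an automorphism transitive on involutions.
-/

set_option autoImplicit false

namespace Cfsg.Agent.Lib.TwoRankTrans

open Cfsg.Agent.Lib.Classical
open Cfsg.Agent.Lib.U3Sylow (Shape Fx mem_Fx card_Fx N B N_mem)
open scoped commutatorElement

universe u v w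

/-! ### The setup -/

theorem exists_setup {T : Type u} [Group T] [Finite T] (hT : IsPGroup 2 T)
    (h2 : Cfsg.PRankLE 2 2 T) (h1 : ¬ Cfsg.PRankLE 2 1 T) (φ : MulAut T)
    (htrans : ∀ s t : T, orderOf s = 2 → orderOf t = 2 → ∃ k : ℕ, (φ ^ k) s = t) :
    ∃ ψ : MulAut T, Setup T ψ := by
  classical
  haveI : Fact (Nat.Prime 2) := ⟨Nat.prime_two⟩
  rw [Cfsg.PRankLE] at h1
  push Not at h1
  obtain ⟨E, hEc, hE2, hEcard⟩ := h1
  have hE2' : ∀ a ∈ E, a * a = 1 := fun a ha => by rw [← sq]; exact hE2 a ha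
  have ho : ∀ s : T, s * s = 1 → s ≠ 1 → orderOf s = 2 := fun s hs hs1 =>
    orderOf_eq_prime (by rw [sq]; exact hs) hs1
  haveI : Nontrivial T := by
    by_contra h
    rw [not_nontrivial_iff_subsingleton] at h
    have : Nat.card E ≤ 1 := Finite.card_le_one_iff_subsingleton.2 inferInstance
    omega
  have hcentral : ∀ s : T, s * s = 1 → s ∈ Subgroup.center T := by
    intro s hs
    rcases eq_or_ne s 1 with rfl | hs1
    · exact one_mem _
    haveI := hT.center_nontrivial
    obtain ⟨n, hn⟩ := (hT.to_subgroup (Subgroup.center T)).exists_card_eq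
    have hn0 : n ≠ 0 := fun h => by
      have := (Finite.one_lt_card_iff_nontrivial (α := Subgroup.center T)).2 inferInstance
      rw [hn, h, pow_zero] at this
      omega
    obtain ⟨z, hz⟩ := exists_prime_orderOf_dvd_card' (G := Subgroup.center T) 2
      (hn ▸ dvd_pow_self 2 hn0)
    obtain ⟨k, rfl⟩ := htrans (z : T) s (by rw [Subgroup.orderOf_coe]; exact hz) (ho s hs hs1)
    rw [Subgroup.mem_center_iff]
    intro t
    obtain ⟨t, rfl⟩ := (φ ^ k).surjective t
    rw [← map_mul, ← map_mul, Subgroup.mem_center_iff.1 z.2 t]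
  have hΩmem : ∀ s : T, s ∈ SuzukiTwo.Omega T ↔ s * s = 1 := fun s => ⟨fun h => h.2, fun h => ⟨hcentral s h, h⟩⟩
  have hΩle : Nat.card (SuzukiTwo.Omega T) ≤ 4 := by
    refine h2 (SuzukiTwo.Omega T) ?_ fun a ha => by rw [sq]; exact ha.2
    exact ⟨⟨fun a b => Subtype.ext (Subgroup.mem_center_iff.1 b.2.1 a)⟩⟩
  have hEΩ : E ≤ SuzukiTwo.Omega T := fun a ha => (hΩmem a).2 (hE2' a ha)
  have hΩ4 : Nat.card (SuzukiTwo.Omega T) = 4 := by
    have h := Subgroup.card_le_of_le hEΩ
    obtain ⟨n, hn⟩ := (hT.to_subgroup (SuzukiTwo.Omega T)).exists_card_eq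
    rw [hn] at h hΩle ⊢
    rcases lt_trichotomy n 2 with h' | rfl | h'
    · have := Nat.pow_le_pow_right two_pos (show n ≤ 1 by omega); omega
    · norm_num
    · have := Nat.pow_le_pow_right two_pos (show 3 ≤ n by omega); omega
  -- three involutions
  letI := Fintype.ofFinite (SuzukiTwo.Omega T)
  have hcount : ∀ l : List T, (∀ x ∈ l, x ∈ SuzukiTwo.Omega T) → l.Nodup → l.length ≤ 4 := fun l hl hnd => by
    have hle := Finset.card_le_card_of_injOn (s := l.toFinset) (t := (SuzukiTwo.Omega T : Set T).toFinset)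
      id (fun x hx => by simpa using hl x (by simpa using hx)) (by simp [Set.InjOn])
    rw [List.toFinset_card_of_nodup hnd, Set.toFinset_card] at hle
    exact hle.trans_eq (by rw [← hΩ4, Nat.card_eq_fintype_card]; rfl)
  have hmap : ∀ (f : MulAut T) (s : T), s * s = 1 → f s * f s = 1 := fun f s hs => by
    rw [← map_mul, hs, map_one]
  have hne1 : ∀ (f : MulAut T) (s : T), s ≠ 1 → f s ≠ 1 := fun f s hs h =>
    hs (f.injective (h.trans (map_one f).symm))
  have hperm : ∀ s : T, s * s = 1 → s ≠ 1 → φ s ≠ s ∧ φ (φ s) ≠ s ∧ φ (φ (φ s)) = s := by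
    intro s hs hs1
    have hother : ∀ a b : T, a * a = 1 → b * b = 1 →
        ∃ t, t * t = 1 ∧ t ≠ 1 ∧ t ≠ a ∧ t ≠ b := by
      intro a b ha hb
      by_contra! h
      have hsub : ∀ x : SuzukiTwo.Omega T, (x : T) = 1 ∨ (x : T) = a ∨ (x : T) = b := fun x => by
        by_cases hx1 : (x : T) = 1
        · exact Or.inl hx1
        by_cases hxa : (x : T) = a
        · exact Or.inr (Or.inl hxa)
        exact Or.inr (Or.inr (h x x.2.2 hx1 hxa))
      have := Nat.card_le_card_of_surjective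
        (![1, ⟨a, (hΩmem a).2 ha⟩, ⟨b, (hΩmem b).2 hb⟩] : Fin 3 → SuzukiTwo.Omega T) fun x => by
          rcases hsub x with e | e | e
          · exact ⟨0, Subtype.ext e.symm⟩
          · exact ⟨1, Subtype.ext e.symm⟩
          · exact ⟨2, Subtype.ext e.symm⟩
      rw [hΩ4, Nat.card_fin] at this
      omega
    have e1 : φ s ≠ s := by
      intro e
      obtain ⟨t, ht, ht1, hts, -⟩ := hother s s hs hs
      obtain ⟨k, rfl⟩ := htrans s t (ho s hs hs1) (ho t ht ht1)
      exact hts (pow_apply_fix φ e k)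
    have e2 : φ (φ s) ≠ s := by
      intro e
      obtain ⟨t, ht, ht1, hts, hts'⟩ := hother s (φ s) hs (hmap φ s hs)
      obtain ⟨k, rfl⟩ := htrans s t (ho s hs hs1) (ho t ht ht1)
      have e' : (φ ^ 2) s = s := by rw [sq]; exact e
      obtain ⟨j, rfl | rfl⟩ := Nat.even_or_odd' k
      · rw [pow_mul] at hts
        exact hts (pow_apply_fix _ e' j)
      · rw [pow_succ', MulAut.mul_apply, pow_mul, pow_apply_fix _ e' j] at hts'
        exact hts' rfl
    refine ⟨e1, e2, ?_⟩
    by_contra h3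
    have hnd : [1, s, φ s, φ (φ s), φ (φ (φ s))].Nodup := by
      have a1 := hne1 φ s hs1
      have a2 := hne1 φ _ a1
      have a3 := hne1 φ _ a2
      have b1 : φ (φ s) ≠ φ s := fun h => e1 (φ.injective h)
      have b2 : φ (φ (φ s)) ≠ φ s := fun h => e2 (φ.injective h)
      have b3 : φ (φ (φ s)) ≠ φ (φ s) := fun h => b1 (φ.injective h)
      simp [Ne.symm hs1, Ne.symm a1, Ne.symm a2, Ne.symm a3, Ne.symm e1, Ne.symm e2, Ne.symm h3,
        Ne.symm b1, Ne.symm b2, Ne.symm b3]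
    have := hcount _ (fun x hx => by
      have m1 := hmap φ s hs
      have m2 := hmap φ _ m1
      have m3 := hmap φ _ m2
      simp only [List.mem_cons, List.not_mem_nil, or_false] at hx
      rcases hx with rfl | rfl | rfl | rfl | rfl
      exacts [one_mem _, (hΩmem _).2 hs, (hΩmem _).2 m1, (hΩmem _).2 m2, (hΩmem _).2 m3]) hnd
    simp at this
  -- the 3-part
  haveI : Finite (MulAut T) := Finite.of_injective (fun f => (f : T → T)) DFunLike.coe_injective
  set n := orderOf φ with hn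
  have hn0 : n ≠ 0 := (orderOf_pos φ).ne'
  set m := n / 3 ^ n.factorization 3 with hm
  have hm3 : ¬ 3 ∣ m := Nat.not_dvd_ordCompl Nat.prime_three hn0
  have h3fix : ∀ (s : T), s * s = 1 → (φ ^ 3) s = s := fun s hs => by
    rcases eq_or_ne s 1 with rfl | hs1
    · exact map_one _
    · rw [pow_succ, pow_succ, pow_one]; exact (hperm s hs hs1).2.2
  refine ⟨φ ^ m, hT, hcentral, hΩ4, fun s hs e => ?_, fun s hs => ?_, n.factorization 3, ?_⟩
  · by_contra hs1
    have e' : (φ ^ (m % 3)) s = s := by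
      rw [← Nat.mod_add_div m 3, pow_add, MulAut.mul_apply, pow_mul φ 3,
        pow_apply_fix _ (h3fix s hs)] at e
      exact e
    rcases (show m % 3 = 1 ∨ m % 3 = 2 by omega) with h | h <;> rw [h] at e'
    · rw [pow_one] at e'; exact (hperm s hs hs1).1 e'
    · rw [sq] at e'; exact (hperm s hs hs1).2.1 e'
  · show (φ ^ m * φ ^ m * φ ^ m) s = s
    rw [← pow_add, ← pow_add, show m + m + m = 3 * m by ring, pow_mul]
    exact pow_apply_fix _ (h3fix s hs) m
  · rw [← pow_mul, hm, Nat.div_mul_cancel (Nat.ordProj_dvd n 3), hn, pow_orderOf_eq_one]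

/-! ### The abelian case -/

namespace Setup

variable {T : Type u} [Group T] [Finite T] {ψ : MulAut T} (S : Setup T ψ)
include S

theorem homocyclic (hab : ∀ x y : T, x * y = y * x) :
    ∃ n : ℕ, 1 ≤ n ∧ Nonempty (T ≃* Multiplicative (ZMod (2 ^ n) × ZMod (2 ^ n))) := by
  classical
  haveI : Fact (Nat.Prime 2) := ⟨Nat.prime_two⟩
  letI : CommGroup T := { (inferInstance : Group T) with mul_comm := hab }
  obtain ⟨a, ha⟩ := Monoid.exists_orderOf_eq_exponent
    (Monoid.ExponentExists.of_finite (G := T))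
  obtain ⟨k, hk⟩ := (IsPGroup.iff_orderOf.1 S.pgroup) a
  have hnt : Monoid.exponent T ≠ 1 := fun h => by
    haveI : Subsingleton T := Monoid.exp_eq_one_iff.1 h
    have : Nat.card (SuzukiTwo.Omega T) ≤ 1 := Finite.card_le_one_iff_subsingleton.2 inferInstance
    rw [S.card] at this
    omega
  obtain ⟨j, rfl⟩ : ∃ j, k = j + 1 := ⟨k - 1, by
    have : k ≠ 0 := fun h => hnt (by rw [← ha, hk, h, pow_zero])
    omega⟩
  refine ⟨j + 1, by omega, ?_⟩
  set s := a ^ 2 ^ j with hs
  have hs2 : s * s = 1 := by rw [hs, ← sq, ← pow_mul, ← pow_succ, ← hk, pow_orderOf_eq_one]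
  have hs1 : s ≠ 1 := fun h => by
    have := Nat.le_of_dvd (by positivity) (orderOf_dvd_of_pow_eq_one h)
    rw [hk, pow_succ] at this
    have := Nat.two_pow_pos j
    omega
  have hψ2 : ψ s * ψ s = 1 := by rw [← map_mul, hs2, map_one]
  refine FusionEssential.exists_equiv_of_homocyclic (p := 2) (k := j)
    (fun x => by rw [← hk, ha]; exact Monoid.pow_exponent_eq_one x) ?_ (a := a) (b := ψ a) ?_
  · refine (Subgroup.card_le_of_le fun x hx => ?_).trans_eq S.card
    rw [S.mem_omega, ← sq]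
    simpa [FusionEssential.mem_torsion] using hx
  · intro i l h
    rw [← map_pow, ← hs] at h
    have hmod : ∀ (z : T), z * z = 1 → ∀ i : ℤ, z ^ i = if 2 ∣ i then 1 else z := fun z hz i => by
      obtain ⟨r, rfl | rfl⟩ := Int.even_or_odd' i
      · rw [if_pos (dvd_mul_right _ _), zpow_mul, zpow_two, hz, one_zpow]
      · rw [if_neg (by omega), zpow_add, zpow_mul, zpow_two, hz, one_zpow, one_mul, zpow_one]
    rw [hmod s hs2, hmod _ hψ2] at h
    split_ifs at h with h1 h2 h2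
    · exact ⟨h1, h2⟩
    · rw [one_mul] at h
      exact absurd (ψ.injective (h.trans (map_one ψ).symm)) hs1
    · rw [mul_one] at h; exact absurd h hs1
    · exact absurd (S.moves s hs2 (mul_left_cancel (h.trans hs2.symm))) hs1

/-! ### The nonabelian case -/

theorem isSuzuki (hne : ∃ x y : T, x * y ≠ y * x) : Cfsg.IsSuzukiTwoGroup T := by
  classical
  have h3 := S.pow_three
  have hthree : ∀ k : ℤ, ψ ^ k = 1 ∨ ψ ^ k = ψ ∨ ψ ^ k = ψ * ψ := fun k => by
    have e : ψ ^ k = ψ ^ (k % 3) := by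
      conv_lhs => rw [← Int.emod_add_mul_ediv k 3, zpow_add, zpow_mul,
        show ψ ^ (3 : ℤ) = 1 by exact_mod_cast h3, one_zpow, mul_one]
    rw [e]
    rcases (show k % 3 = 0 ∨ k % 3 = 1 ∨ k % 3 = 2 by omega) with r | r | r <;> rw [r]
    · exact Or.inl (zpow_zero ψ)
    · exact Or.inr (Or.inl (zpow_one ψ))
    · exact Or.inr (Or.inr (zpow_two ψ))
  have hd : ∀ x : T, x * x = 1 → x ≠ 1 → ψ x ≠ x ∧ ψ (ψ x) ≠ x := fun x hx hx1 =>
    ⟨fun e => hx1 (S.moves x hx e), fun e => hx1 (S.moves x hx (by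
      have := S.cube x hx; rw [e] at this; exact this))⟩
  have hcover : ∀ x : T, x * x = 1 → x ≠ 1 → ∀ y : T, y * y = 1 → y ≠ 1 →
      y = x ∨ y = ψ x ∨ y = ψ (ψ x) := by
    intro x hx hx1 y hy hy1
    let Wl : Subgroup T := (SuzukiTwo.Omega T) ⊓ Subgroup.closure {x, ψ x}
    have hm : ∀ z ∈ Subgroup.closure ({x, ψ x} : Set T), ψ z ∈ Subgroup.closure ({x, ψ x} : Set T) := by
      intro z hz
      induction hz using Subgroup.closure_induction with
      | mem w hw =>
        rcases hw with rfl | rfl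
        · exact Subgroup.subset_closure (Or.inr rfl)
        · -- the product
          have hprod : x * ψ x * ψ (ψ x) = 1 := by
            refine S.fix_eq_one ?_
            rw [map_mul, map_mul, S.cube x hx]
            have c := Subgroup.mem_center_iff.1 (S.central x hx) (ψ x * ψ (ψ x))
            rw [c, mul_assoc]
          have e : ψ (ψ x) = (x * ψ x)⁻¹ := (eq_inv_of_mul_eq_one_right hprod)
          rw [e]
          exact inv_mem (mul_mem (Subgroup.subset_closure (Or.inl rfl))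
            (Subgroup.subset_closure (Or.inr rfl)))
      | one => rw [map_one]; exact one_mem _
      | mul a b _ _ ha hb => rw [map_mul]; exact mul_mem ha hb
      | inv a _ ha => rw [map_inv]; exact inv_mem ha
    by_contra! hcon
    obtain ⟨c1, c2, c3⟩ := hcon
    let f : Fin 5 → SuzukiTwo.Omega T := ![1, ⟨x, S.mem_omega.2 hx⟩,
      ⟨ψ x, S.mem_omega.2 (by rw [← map_mul, hx, map_one])⟩,
      ⟨ψ (ψ x), S.mem_omega.2 (by rw [← map_mul, ← map_mul, hx, map_one, map_one])⟩,
      ⟨y, S.mem_omega.2 hy⟩]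
    have hf : Function.Injective f := by
      have a1 : ψ x ≠ 1 := fun h => hx1 (ψ.injective (h.trans (map_one ψ).symm))
      have a2 : ψ (ψ x) ≠ 1 := fun h => a1 (ψ.injective (h.trans (map_one ψ).symm))
      have a3 : ψ (ψ x) ≠ ψ x := fun h => (hd x hx hx1).1 (ψ.injective h)
      obtain ⟨d1, d2⟩ := hd x hx hx1
      intro i j h
      have h' := congrArg Subtype.val h
      fin_cases i <;> fin_cases j <;>
        simp [f, hx1, Ne.symm hx1, hy1, Ne.symm hy1, a1, Ne.symm a1, a2, Ne.symm a2, a3, Ne.symm a3,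
          d1, Ne.symm d1, d2, Ne.symm d2, c1, Ne.symm c1, c2, Ne.symm c2, c3, Ne.symm c3] at h' ⊢
    have := Nat.card_le_card_of_injective f hf
    rw [Nat.card_fin, S.card] at this
    omega
  refine ⟨inferInstance, S.pgroup, hne, ?_, Subgroup.zpowers ψ, inferInstance,
    fun x y hx hxx hy hyy => ?_⟩
  · obtain ⟨x, y, hxy⟩ := (Finite.one_lt_card_iff_nontrivial (α := SuzukiTwo.Omega T)).1
      (by rw [S.card]; norm_num) |>.exists_pair_ne
    rcases eq_or_ne (x : T) 1 with h | h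
    · have hy1 : (y : T) ≠ 1 := fun h' => hxy (Subtype.ext (h.trans h'.symm))
      exact ⟨y, ψ y, fun e => (hd y y.2.2 hy1).1 e.symm, hy1, y.2.2,
        fun e => hy1 (ψ.injective (e.trans (map_one ψ).symm)), by rw [← map_mul, y.2.2, map_one]⟩
    · exact ⟨x, ψ x, fun e => (hd x x.2.2 h).1 e.symm, h, x.2.2,
        fun e => h (ψ.injective (e.trans (map_one ψ).symm)), by rw [← map_mul, x.2.2, map_one]⟩
  · obtain ⟨d1, d2⟩ := hd x hxx hx
    have a3 : ψ (ψ x) ≠ ψ x := fun h => d1 (ψ.injective h)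
    have huniq : ∀ g h : MulAut T, g ∈ Subgroup.zpowers ψ → h ∈ Subgroup.zpowers ψ → g x = h x → g = h := by
      rintro _ _ ⟨k, rfl⟩ ⟨l, rfl⟩ e
      rcases hthree k with r | r | r <;> rcases hthree l with r' | r' | r' <;>
        simp only [r, r', MulAut.one_apply, MulAut.mul_apply] at e ⊢
      all_goals first
        | exact absurd e.symm d1 | exact absurd e d1 | exact absurd e.symm d2 | exact absurd e d2
        | exact absurd e.symm a3 | exact absurd e a3
    obtain ⟨g, hg, hgy⟩ : ∃ g ∈ Subgroup.zpowers ψ, g x = y := by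
      rcases hcover x hxx hx y hyy hy with rfl | rfl | rfl
      · exact ⟨1, one_mem _, rfl⟩
      · exact ⟨ψ, Subgroup.mem_zpowers ψ, rfl⟩
      · exact ⟨ψ * ψ, mul_mem (Subgroup.mem_zpowers ψ) (Subgroup.mem_zpowers ψ), rfl⟩
    exact ⟨⟨g, hg⟩, hgy, fun g' hg' => Subtype.ext (huniq _ _ g'.2 hg (hg'.trans hgy.symm))⟩

end Setup

theorem zmod2_cases : ∀ b : ZMod 2, b = 0 ∨ b = 1 := by decide

theorem zmod2_add_self {W : Type u} [AddCommGroup W] [Module (ZMod 2) W] (y : W) : y + y = 0 := by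
  rw [← one_smul (ZMod 2) y, ← add_smul]
  exact (congrArg (· • y) (show (1 : ZMod 2) + 1 = 0 by decide)).trans (zero_smul _ y)

theorem ι_bij {W : Type u} [AddCommGroup W] [Module (ZMod 2) W] (hW : Nat.card W = 16) (T : W →+ W)
    (hT : ∀ x, T (T (T x)) = x) (hfix : ∀ x, T x = x → x = 0) {w v : W} (hw : w ≠ 0)
    (hv : v ≠ 0 ∧ v ≠ w ∧ v ≠ T w ∧ v ≠ w + T w) :
    Function.Bijective fun c : Fin 4 → ZMod 2 => c 0 • w + c 1 • T w + c 2 • v + c 3 • T v := by
  classical
  haveI : Finite W := Nat.finite_of_card_ne_zero (by rw [hW]; norm_num)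
  haveI : Fact (Nat.Prime 3) := ⟨Nat.prime_three⟩
  have h2 : ∀ x : W, x + x = 0 := fun x => by
    rw [← one_smul (ZMod 2) x, ← add_smul]
    exact (congrArg (· • x) (show (1 : ZMod 2) + 1 = 0 by decide)).trans (zero_smul _ x)
  have hTT : ∀ x, T (T x) = x + T x := fun x => by
    have h := hfix (x + T x + T (T x)) (by simp only [map_add, hT]; abel)
    calc T (T x) = 0 + T (T x) := (zero_add _).symm
      _ = x + T x + (T (T x) + T (T x)) := by (conv_lhs => rw [← h]); abel
      _ = _ := by rw [h2, add_zero]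
  let R : AddSubgroup W :=
    { carrier := Set.range fun c : Fin 4 → ZMod 2 => c 0 • w + c 1 • T w + c 2 • v + c 3 • T v
      zero_mem' := ⟨0, by simp⟩
      add_mem' := by
        rintro _ _ ⟨a, rfl⟩ ⟨b, rfl⟩
        exact ⟨a + b, by simp only [Pi.add_apply, add_smul]; abel⟩
      neg_mem' := by
        rintro _ ⟨a, rfl⟩
        exact ⟨-a, by simp only [Pi.neg_apply, neg_smul]; abel⟩ }
  have hsm : ∀ (a : ZMod 2) (x : W), T (a • x) = a • T x := fun a x => by
    rcases zmod2_cases a with rfl | rfl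
    · rw [zero_smul, zero_smul, map_zero]
    · rw [one_smul, one_smul]
  have hTR : ∀ x : R, T x ∈ R := by
    rintro ⟨_, c, rfl⟩
    refine ⟨![c 1, c 0 + c 1, c 3, c 2 + c 3], ?_⟩
    simp only [map_add, hsm, hTT, Matrix.cons_val_zero, Matrix.cons_val_one, Matrix.cons_val,
      smul_add, add_smul]
    abel
  have hwR : w ∈ R := ⟨![1, 0, 0, 0], by simp⟩
  have hTwR : T w ∈ R := ⟨![0, 1, 0, 0], by simp⟩
  have hvR : v ∈ R := ⟨![0, 0, 1, 0], by simp⟩
  have h5 : 5 ≤ Nat.card R := by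
    have hTw : T w ≠ w := fun h => hw (hfix w h)
    have hTw0 : T w ≠ 0 := fun h => hw (by
      have := hT w; rw [h, map_zero, map_zero] at this; exact this.symm)
    have hsum : w + T w ≠ 0 := fun h => hTw (by
      have := congrArg (· + w) h
      simp only [zero_add] at this
      rw [add_comm w (T w), add_assoc, h2, add_zero] at this
      exact this)
    have hf : Function.Injective
        (![0, ⟨w, hwR⟩, ⟨T w, hTwR⟩, ⟨w + T w, add_mem hwR hTwR⟩, ⟨v, hvR⟩] : Fin 5 → R) := by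
      obtain ⟨v0, v1, v2, v3⟩ := hv
      intro i j h
      have h' := congrArg Subtype.val h
      fin_cases i <;> fin_cases j <;>
        simp [hw, Ne.symm hw, hTw, Ne.symm hTw, hTw0, Ne.symm hTw0, hsum, Ne.symm hsum, v0, Ne.symm v0,
          v1, Ne.symm v1, v2, Ne.symm v2, v3, Ne.symm v3] at h' ⊢
    simpa using Nat.card_le_card_of_injective _ hf
  letI : Fintype R := Fintype.ofFinite R
  let f : Function.End R := fun x => ⟨T x, hTR x⟩
  have hf : f ^ 3 ^ 1 = 1 := funext fun x => Subtype.ext (hT x)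
  have hmod := Equiv.Perm.card_fixedPoints_modEq (p := 3) (n := 1) hf
  rw [← Nat.card_eq_fintype_card, ← Nat.card_eq_fintype_card] at hmod
  have h1 : Nat.card (Function.fixedPoints f) = 1 := by
    rw [Nat.card_eq_one_iff_unique]
    exact ⟨⟨fun a b => Subtype.ext (Subtype.ext ((hfix _ (congrArg Subtype.val a.2)).trans
      (hfix _ (congrArg Subtype.val b.2)).symm))⟩, ⟨⟨0, Subtype.ext (map_zero T)⟩⟩⟩
  rw [h1, Nat.ModEq] at hmod
  have hd : Nat.card R ∣ 16 := hW ▸ AddSubgroup.card_addSubgroup_dvd_card R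
  have h16 : Nat.card R = 16 := by
    have := Nat.le_of_dvd (by norm_num) hd
    interval_cases h : Nat.card R <;> omega
  refine (Nat.bijective_iff_surjective_and_card _).2
    ⟨fun x => ?_, by rw [hW, Nat.card_fun, Nat.card_fin, Nat.card_zmod]; norm_num⟩
  have : x ∈ R := (AddSubgroup.eq_top_of_card_eq R (h16.trans hW.symm)) ▸ AddSubgroup.mem_top x
  exact this

namespace Setup

variable {T : Type u} [Group T] [Finite T] {ψ : MulAut T} (S : Setup T ψ)
include S

set_option maxHeartbeats 1000000 in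
theorem equiv_shape (hne : ∃ x y : T, x * y ≠ y * x) {F : Type w} [Field F] [Fintype F] [CharP F 2]
    (hF : Fintype.card F = 4 ^ 2) {P : Type v} [Group P] (HP : Shape F 4 P) :
    Nonempty (T ≃* P) := by
  classical
  haveI : Fact (Nat.Prime 2) := ⟨Nat.prime_two⟩
  haveI : Fact (Nat.Prime 3) := ⟨Nat.prime_three⟩
  obtain ⟨K, _, _, D⟩ := SuzukiTwo.exists_data (S.isSuzuki hne)
  obtain ⟨hsq, hZ⟩ := D.higman hne
  have hcm : ∀ x y : T, ⁅x, y⁆ ∈ SuzukiTwo.Omega T := D.commutator_mem hne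
  haveI := D.omega_normal
  have hψ3 : ∀ x, ψ (ψ (ψ x)) = x := fun x => by
    show (ψ * ψ * ψ) x = x
    rw [show ψ * ψ * ψ = ψ ^ 3 by rw [pow_succ, pow_succ, pow_one], S.pow_three, MulAut.one_apply]
  have hψΩ : ∀ x, x ∈ SuzukiTwo.Omega T → ψ x ∈ SuzukiTwo.Omega T := fun x hx =>
    S.mem_omega.2 (by rw [← map_mul, hx.2, map_one])
  have hcen : ∀ {z}, z ∈ SuzukiTwo.Omega T → ∀ t, t * z = z * t := fun hz t => Subgroup.mem_center_iff.1 hz.1 t
  -- fixed cosets
  have hfixq : ∀ x, x⁻¹ * ψ x ∈ SuzukiTwo.Omega T → x ∈ SuzukiTwo.Omega T := by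
    intro x hx
    let f : SuzukiTwo.Omega T → SuzukiTwo.Omega T := fun w => ⟨(w : T)⁻¹ * ψ w, mul_mem (inv_mem w.2) (hψΩ _ w.2)⟩
    have hf : Function.Injective f := by
      intro a b h
      have h' : (a : T)⁻¹ * ψ a = (b : T)⁻¹ * ψ b := congrArg Subtype.val h
      refine Subtype.ext (inv_mul_eq_one.1 ?_).symm
      refine S.fix_eq_one ?_
      have e : ψ a = (a : T) * ((b : T)⁻¹ * ψ b) := by rw [← h', mul_inv_cancel_left]
      rw [map_mul, map_inv, e, ← mul_assoc (a : T), hcen (inv_mem b.2) (a : T)]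
      have c := hcen (mul_mem (inv_mem b.2) a.2) (ψ b)⁻¹
      calc (ψ b)⁻¹ * ((b : T)⁻¹ * a * ψ b) = (ψ b)⁻¹ * ((b : T)⁻¹ * a) * ψ b := by group
        _ = (b : T)⁻¹ * a := by rw [c, inv_mul_cancel_right]
    obtain ⟨w, hw⟩ := hf.bijective_of_finite.2 ⟨_, hx⟩
    have hw' : (w : T)⁻¹ * ψ w = x⁻¹ * ψ x := congrArg Subtype.val hw
    have hfx : ψ (x * (w : T)⁻¹) = x * (w : T)⁻¹ := by
      rw [map_mul, map_inv, show ψ x = x * ((w : T)⁻¹ * ψ w) by rw [hw', mul_inv_cancel_left]]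
      group
    rw [mul_inv_eq_one.1 (S.fix_eq_one hfx)]
    exact w.2
  have hsum : ∀ x, x * ψ x * ψ (ψ x) ∈ SuzukiTwo.Omega T := fun x => hfixq _ (by
    rw [map_mul, map_mul, hψ3, show (x * ψ x * ψ (ψ x))⁻¹ * (ψ x * ψ (ψ x) * x) =
      ⁅(ψ (ψ x))⁻¹ * (ψ x)⁻¹, x⁻¹⁆⁻¹⁻¹ * 1 * 1 by simp only [commutatorElement_def]; group]
    simpa using hcm _ _)
  have hbl : ∀ x y z : T, ⁅x * y, z⁆ = ⁅x, z⁆ * ⁅y, z⁆ := fun x y z => by
    calc ⁅x * y, z⁆ = x * ⁅y, z⁆ * x⁻¹ * ⁅x, z⁆ := by simp only [commutatorElement_def]; group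
      _ = ⁅y, z⁆ * ⁅x, z⁆ := by rw [hcen (hcm y z) x, mul_inv_cancel_right]
      _ = _ := (hcen (hcm y z) _).symm
  have hsym : ∀ x y : T, ⁅y, x⁆ = ⁅x, y⁆ := fun x y => by
    rw [← commutatorElement_inv]
    exact inv_eq_of_mul_eq_one_right (hcm x y).2
  have hbr : ∀ x y z : T, ⁅x, y * z⁆ = ⁅x, y⁆ * ⁅x, z⁆ := fun x y z => by
    rw [hsym, hbl, hsym y x, hsym z x]
  have hΩc : ∀ {a}, a ∈ SuzukiTwo.Omega T → ∀ z : T, ⁅a, z⁆ = 1 := fun ha z =>
    commutatorElement_eq_one_iff_mul_comm.2 (hcen ha z).symm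
  have hΩc' : ∀ {a}, a ∈ SuzukiTwo.Omega T → ∀ z : T, ⁅z, a⁆ = 1 := fun ha z => by rw [hsym, hΩc ha]
  have hΩ3 : ∀ a ∈ SuzukiTwo.Omega T, ψ (ψ a) = a * ψ a := fun a ha => by
    have e : a * ψ a * ψ (ψ a) = 1 := S.fix_eq_one (by
      rw [map_mul, map_mul, hψ3, hcen ha (ψ a * ψ (ψ a)), mul_assoc])
    have h2 : a * ψ a * (a * ψ a) = 1 := (mul_mem ha (hψΩ a ha)).2
    exact mul_left_cancel (e.trans h2.symm)
  have hψ2x : ∀ x z, ⁅ψ (ψ x), z⁆ = ⁅x, z⁆ * ⁅ψ x, z⁆ := fun x z => by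
    have h := hbl (x * ψ x) (ψ (ψ x)) z
    rw [hΩc (hsum x), hbl x (ψ x) z] at h
    have h2 : ⁅x, z⁆ * ⁅ψ x, z⁆ * (⁅x, z⁆ * ⁅ψ x, z⁆) = 1 :=
      (mul_mem (hcm x z) (hcm (ψ x) z)).2
    exact mul_left_cancel (h.symm.trans h2.symm)
  have hline : ∀ x, ⁅x, ψ x⁆ = 1 := fun x => S.fix_eq_one (by
    rw [map_commutatorElement, hsym, hψ2x, commutatorElement_self, mul_one])
  -- cardinality
  have h64 : Nat.card T = 64 := by
    rcases D.card_cases hne with h | h
    · exfalso
      rw [S.card] at h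
      obtain ⟨g, hg⟩ : ∃ g, g ∉ SuzukiTwo.Omega T := by
        by_contra! hh
        obtain ⟨x, y, hxy⟩ := hne
        exact hxy (hcen (hh y) x)
      have hψg : ψ g ∉ SuzukiTwo.Omega T := fun h => hg (by
        have := hψΩ _ (hψΩ _ h); rwa [hψ3] at this)
      have hne' : g⁻¹ * ψ g ∉ SuzukiTwo.Omega T := fun h => hg (hfixq g h)
      have hprod : g * ψ g ∉ SuzukiTwo.Omega T := fun h => hne' (by
        have h2 := mul_mem (inv_mem (hsq g)) h
        rwa [show (g * g)⁻¹ * (g * ψ g) = g⁻¹ * ψ g by group] at h2)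
      have hq : Nat.card (T ⧸ SuzukiTwo.Omega T) = 4 := by
        have h1 := Subgroup.card_eq_card_quotient_mul_card_subgroup (SuzukiTwo.Omega T)
        rw [h, S.card] at h1
        omega
      let f : Fin 4 → T ⧸ SuzukiTwo.Omega T := ![((1 : T) : T ⧸ SuzukiTwo.Omega T), (g : T ⧸ SuzukiTwo.Omega T),
        (ψ g : T ⧸ SuzukiTwo.Omega T), ((g * ψ g : T) : T ⧸ SuzukiTwo.Omega T)]
      have hf : Function.Injective f := by
        intro i j h'
        fin_cases i <;> fin_cases j <;>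
          simp only [f, Matrix.cons_val_zero, Matrix.cons_val_one, Matrix.cons_val, QuotientGroup.eq,
            inv_one, one_mul, mul_one, inv_mem_iff, inv_mul_cancel_left, Fin.zero_eta, Fin.mk_one,
            Fin.reduceFinMk] at h' ⊢
        all_goals exfalso
        all_goals first
          | exact hg h' | exact hψg h' | exact hprod h' | exact hne' h'
          | exact hne' (by
              have h2 := inv_mem h'
              rwa [show ((ψ g)⁻¹ * g)⁻¹ = g⁻¹ * ψ g by group] at h2)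
          | exact hψg (by
              have h2 := inv_mem h'
              rwa [show ((g * ψ g)⁻¹ * g)⁻¹ = g⁻¹ * (g * ψ g) by group, inv_mul_cancel_left] at h2)
          | exact hg (by
              have h2 := (D.omega_normal).conj_mem _ h' (ψ g)
              rwa [show ψ g * ((ψ g)⁻¹ * (g * ψ g)) * (ψ g)⁻¹ = g by group] at h2)
          | exact hg (by
              have h2 := (D.omega_normal).conj_mem _ (inv_mem h') (ψ g)
              rwa [show ψ g * ((g * ψ g)⁻¹ * ψ g)⁻¹ * (ψ g)⁻¹ = g by group] at h2)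
      have hb := (Nat.bijective_iff_injective_and_card f).2 ⟨hf, by rw [Nat.card_fin, hq]⟩
      have hgc : ∀ t : T, ⁅g, t⁆ = 1 := fun t => by
        obtain ⟨i, hi⟩ := hb.2 (t : T ⧸ SuzukiTwo.Omega T)
        have key : ∀ r : T, (r : T ⧸ SuzukiTwo.Omega T) = (t : T ⧸ SuzukiTwo.Omega T) → ⁅g, r⁆ = 1 → ⁅g, t⁆ = 1 :=
          fun r hr h1 => by
            rw [show t = r * (r⁻¹ * t) by group, hbr, h1, hΩc' (QuotientGroup.eq.1 hr), one_mul]
        fin_cases i
        · exact key 1 hi (commutatorElement_one_right g)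
        · exact key g hi (commutatorElement_self g)
        · exact key _ hi (hline g)
        · exact key _ hi (by rw [hbr, commutatorElement_self, hline, one_mul])
      exact hg (hZ ▸ Subgroup.mem_center_iff.2 fun t =>
        (commutatorElement_eq_one_iff_mul_comm.1 (hgc t)).symm)
    · rw [h, S.card]; norm_num
  have hW : Nat.card (T ⧸ SuzukiTwo.Omega T) = 16 := by
    have h1 := Subgroup.card_eq_card_quotient_mul_card_subgroup (SuzukiTwo.Omega T)
    rw [h64, S.card] at h1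
    omega
  -- the additive quotient
  letI : CommGroup (T ⧸ SuzukiTwo.Omega T) :=
    { (inferInstance : Group (T ⧸ SuzukiTwo.Omega T)) with
      mul_comm := fun a b => QuotientGroup.induction_on a fun a => QuotientGroup.induction_on b
        fun b => commutatorElement_eq_one_iff_mul_comm.1
          ((QuotientGroup.eq_one_iff ⁅a, b⁆).2 (hcm a b)) }
  letI : Module (ZMod 2) (Additive (T ⧸ SuzukiTwo.Omega T)) :=
    AddCommGroup.zmodModule fun y => by
      rw [two_nsmul]
      show Additive.ofMul (y.toMul * y.toMul) = 0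
      refine congrArg Additive.ofMul ?_
      induction y.toMul using QuotientGroup.induction_on with
      | _ a => exact (QuotientGroup.eq_one_iff (a * a)).2 (hsq a)
  let cls : T → Additive (T ⧸ SuzukiTwo.Omega T) := fun x => Additive.ofMul (x : T ⧸ SuzukiTwo.Omega T)
  have cls_mul : ∀ x y, cls (x * y) = cls x + cls y := fun x y => rfl
  have cls_zero : ∀ x, cls x = 0 ↔ x ∈ SuzukiTwo.Omega T := fun x => QuotientGroup.eq_one_iff x
  let ψb : MulAut (T ⧸ SuzukiTwo.Omega T) := QuotientGroup.congr _ _ ψ (Subgroup.eq_of_le_of_card_ge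
    (by rintro _ ⟨x, hx, rfl⟩; exact hψΩ x hx)
    (Subgroup.card_map_of_injective (f := ψ.toMonoidHom) ψ.injective).ge)
  let TW : Additive (T ⧸ SuzukiTwo.Omega T) →+ Additive (T ⧸ SuzukiTwo.Omega T) := MonoidHom.toAdditive ψb.toMonoidHom
  have hTW : ∀ x, TW (cls x) = cls (ψ x) := fun x => rfl
  have hcls : ∀ y, ∃ x, cls x = y := fun y => by
    obtain ⟨x, hx⟩ := QuotientGroup.mk'_surjective (SuzukiTwo.Omega T) y.toMul
    exact ⟨x, congrArg Additive.ofMul hx⟩
  have hTW3 : ∀ y, TW (TW (TW y)) = y := fun y => by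
    obtain ⟨x, rfl⟩ := hcls y
    rw [hTW, hTW, hTW, hψ3]
  have hTWfix : ∀ y, TW y = y → y = 0 := fun y hy => by
    obtain ⟨x, rfl⟩ := hcls y
    rw [hTW] at hy
    exact (cls_zero x).2 (hfixq x (QuotientGroup.eq.1 hy.symm))
  -- generators
  obtain ⟨g, hg⟩ : ∃ g, g ∉ SuzukiTwo.Omega T := by
    by_contra! hh
    obtain ⟨x, y, hxy⟩ := hne
    exact hxy (hcen (hh y) x)
  obtain ⟨h, hh0, hhg, hhψ, hhp⟩ : ∃ h : T, cls h ≠ 0 ∧ cls h ≠ cls g ∧ cls h ≠ cls (ψ g) ∧
      cls h ≠ cls g + cls (ψ g) := by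
    by_contra! hcon
    have := Nat.card_le_card_of_surjective
      (![0, cls g, cls (ψ g), cls g + cls (ψ g)] : Fin 4 → Additive (T ⧸ SuzukiTwo.Omega T)) fun y => by
        obtain ⟨x, rfl⟩ := hcls y
        by_cases h0 : cls x = 0
        · exact ⟨0, h0.symm⟩
        by_cases h1 : cls x = cls g
        · exact ⟨1, h1.symm⟩
        by_cases h2 : cls x = cls (ψ g)
        · exact ⟨2, h2.symm⟩
        exact ⟨3, (hcon x h0 h1 h2).symm⟩
    rw [← Nat.card_congr Additive.ofMul, hW, Nat.card_fin] at this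
    omega
  set β := ⁅g, h⁆ with hβ
  have hδ : ⁅g, ψ h⁆ = β * ψ β := by
    -- two evaluations of the mixed commutator
    set γ := ⁅g, ψ h⁆ with hγ
    have hγΩ : γ ∈ SuzukiTwo.Omega T := hcm _ _
    have hβΩ : β ∈ SuzukiTwo.Omega T := hcm _ _
    have e1 : ⁅ψ g, h⁆ = ψ (β * γ) := by
      rw [show β * γ = ⁅g, ψ (ψ h)⁆ by rw [hsym (ψ (ψ h)), hψ2x, hsym g h, hsym g (ψ h)],
        map_commutatorElement, hψ3]
    have e2 : ⁅ψ g, h⁆ = β * ψ (ψ γ) := by
      have h3 : ψ (ψ γ) = β * ⁅ψ g, h⁆ := by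
        rw [hγ, map_commutatorElement, map_commutatorElement, hψ3, hψ2x]
      rw [h3, ← mul_assoc, hβΩ.2, one_mul]
    rw [e1, map_mul, hΩ3 γ hγΩ, ← mul_assoc] at e2
    rw [mul_right_cancel e2, ← mul_assoc, hβΩ.2, one_mul]
  have hδ' : ⁅ψ g, h⁆ = β * ψ β := by
    have hβΩ : β ∈ SuzukiTwo.Omega T := hcm _ _
    have h3 : ψ (ψ (β * ψ β)) = β * ⁅ψ g, h⁆ := by
      rw [← hδ, map_commutatorElement, map_commutatorElement, hψ3, hψ2x]
    have h4 : ψ (ψ (β * ψ β)) = β * (β * ψ β) := by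
      rw [map_mul, map_mul, hψ3, hΩ3 β hβΩ, hcen hβΩ (β * ψ β)]
    exact mul_left_cancel (h3.symm.trans h4)
  have hδ'' : ⁅ψ g, ψ h⁆ = ψ β := by rw [hβ, map_commutatorElement]
  -- the field
  obtain ⟨ωu, hωu⟩ := exists_prime_orderOf_dvd_card' (G := Fˣ) 3 (by
    rw [Nat.card_eq_fintype_card, Fintype.card_units, hF]; norm_num)
  set ω : F := (ωu : F) with hωdef
  have hω3 : ω ^ 3 = 1 := by
    rw [hωdef, ← Units.val_pow_eq_pow_val, ← hωu, pow_orderOf_eq_one, Units.val_one]
  have hω1 : ω ≠ 1 := fun e => by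
    rw [show ωu = 1 from Units.ext e, orderOf_one] at hωu
    norm_num at hωu
  have hω0 : ω ≠ 0 := ωu.ne_zero
  have h2F := CharTwo.two_eq_zero (R := F)
  have hωq : ω ^ 2 + ω + 1 = 0 := by
    have : (ω - 1) * (ω ^ 2 + ω + 1) = 0 := by linear_combination hω3
    exact (mul_eq_zero.1 this).resolve_left (sub_ne_zero.2 hω1)
  have hωF : ω ∈ Fx hF := by rw [mem_Fx]; linear_combination ω * hω3
  have hω2F : ω ^ 2 ∈ Fx hF := by rw [mem_Fx]; linear_combination (ω ^ 5 + ω ^ 2) * hω3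
  have h1F : (1 : F) ∈ Fx hF := one_pow 4
  have hω21 : ω ^ 2 ≠ 1 := fun e => hω1 (by linear_combination hω3 - ω * e)
  have hω2ω : ω ^ 2 ≠ ω := fun e => hω1 (mul_left_cancel₀ hω0 (by linear_combination e))
  have hroot : ∀ x ∈ Fx hF, x = 0 ∨ x = 1 ∨ x = ω ^ 2 ∨ x = ω := fun x hx => by
    have h0 : (x * (x - 1)) * ((x - ω ^ 2) * (x - ω)) = 0 := by
      linear_combination (mem_Fx hF).1 hx - (x ^ 3 - x ^ 2) * hωq + (x ^ 2 - x) * hω3
    rcases mul_eq_zero.1 h0 with e | e <;> rcases mul_eq_zero.1 e with e | e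
    · exact Or.inl e
    · exact Or.inr (Or.inl (sub_eq_zero.1 e))
    · exact Or.inr (Or.inr (Or.inl (sub_eq_zero.1 e)))
    · exact Or.inr (Or.inr (Or.inr (sub_eq_zero.1 e)))
  -- the involutions
  set s := g * g with hs
  have hsΩ : s ∈ SuzukiTwo.Omega T := hsq g
  have hs1 : s ≠ 1 := fun e => hg (S.mem_omega.2 e)
  let L : Fx hF → T := fun c => if (c : F) = 0 then 1 else if (c : F) = 1 then s
    else if (c : F) = ω ^ 2 then ψ s else s * ψ s
  have L0 : ∀ {c : Fx hF}, (c : F) = 0 → L c = 1 := fun e => by simp only [L, if_pos e]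
  have L1 : ∀ {c : Fx hF}, (c : F) = 1 → L c = s := fun e => by
    simp only [L]; rw [if_neg (by rw [e]; exact one_ne_zero), if_pos e]
  have L2 : ∀ {c : Fx hF}, (c : F) = ω ^ 2 → L c = ψ s := fun e => by
    simp only [L]
    rw [if_neg (by rw [e]; exact pow_ne_zero 2 hω0), if_neg (by rw [e]; exact hω21), if_pos e]
  have L3 : ∀ {c : Fx hF}, (c : F) = ω → L c = s * ψ s := fun e => by
    simp only [L]
    rw [if_neg (by rw [e]; exact hω0), if_neg (by rw [e]; exact hω1),
      if_neg (by rw [e]; exact Ne.symm hω2ω)]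
  have hψs : ψ s ∈ SuzukiTwo.Omega T := hψΩ s hsΩ
  have hLΩ : ∀ c, L c ∈ SuzukiTwo.Omega T := fun c => by
    rcases hroot c c.2 with e | e | e | e
    · rw [L0 e]; exact one_mem _
    · rw [L1 e]; exact hsΩ
    · rw [L2 e]; exact hψs
    · rw [L3 e]; exact mul_mem hsΩ hψs
  have t1 : s * s = 1 := hsΩ.2
  have t2 : ψ s * ψ s = 1 := hψs.2
  have t3 : ψ s * s = s * ψ s := hcen hsΩ (ψ s)
  have t4 : s * (s * ψ s) = ψ s := by rw [← mul_assoc, t1, one_mul]
  have t5 : s * ψ s * s = ψ s := by rw [mul_assoc, t3, t4]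
  have t6 : ψ s * (s * ψ s) = s := by rw [← mul_assoc, t3, mul_assoc, t2, mul_one]
  have t7 : s * ψ s * ψ s = s := by rw [mul_assoc, t2, mul_one]
  have t8 : s * ψ s * (s * ψ s) = 1 := (mul_mem hsΩ hψs).2
  have hLmul : ∀ c d : Fx hF, L (c + d) = L c * L d := by
    intro c d
    have a1 : (1 : F) + ω ^ 2 = ω := by linear_combination hωq - h2F * ω
    have a2 : ω ^ 2 + (1 : F) = ω := by linear_combination hωq - h2F * ω
    have a3 : (1 : F) + ω = ω ^ 2 := by linear_combination hωq - h2F * ω ^ 2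
    have a4 : ω + (1 : F) = ω ^ 2 := by linear_combination hωq - h2F * ω ^ 2
    have a5 : ω ^ 2 + ω = (1 : F) := by linear_combination hωq - h2F
    have a6 : ω + ω ^ 2 = (1 : F) := by linear_combination hωq - h2F
    rcases hroot c c.2 with e | e | e | e <;> rcases hroot d d.2 with e' | e' | e' | e' <;>
      first
      | (rw [L0 e, L0 (c := c + d) (by rw [AddSubgroup.coe_add, e, e', add_zero]), L0 e', one_mul]; done)
      | skip
    all_goals have ec : ((c + d : Fx hF) : F) = (c : F) + d := rfl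
    all_goals rw [e, e'] at ec
    all_goals simp only [zero_add, add_zero, CharTwo.add_self_eq_zero, a1, a2, a3, a4, a5, a6] at ec
    all_goals simp only [L0, L1, L2, L3, e, e', ec, one_mul, mul_one, t1, t2, t3, t4, t5, t6, t7, t8]
  have hLψ : ∀ c d : Fx hF, (d : F) = ω ^ 2 * c → L d = ψ (L c) := by
    intro c d e
    rcases hroot c c.2 with e' | e' | e' | e' <;> rw [e'] at e
    · rw [L0 e', L0 (by rw [e, mul_zero]), map_one]
    · rw [L1 e', L2 (by rw [e, mul_one])]
    · rw [L2 e', L3 (by rw [e]; linear_combination ω * hω3), hΩ3 s hsΩ]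
    · rw [L3 e', L1 (by rw [e]; linear_combination hω3), map_mul, hΩ3 s hsΩ, t6]
  let iG : Multiplicative (Fx hF) →* T :=
    { toFun := fun c => L c.toAdd
      map_one' := L0 rfl
      map_mul' := fun c d => hLmul _ _ }
  have hiinj : Function.Injective iG := by
    rw [injective_iff_map_eq_one]
    intro c hc
    have hc' : L c.toAdd = 1 := hc
    rcases hroot (c.toAdd : F) c.toAdd.2 with e | e | e | e
    · exact Multiplicative.toAdd.injective (Subtype.ext e)
    · rw [L1 e] at hc'; exact absurd hc' hs1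
    · rw [L2 e] at hc'
      exact absurd (ψ.injective (hc'.trans (map_one ψ).symm)) hs1
    · rw [L3 e] at hc'
      exact absurd (S.moves s t1 (mul_left_cancel (hc'.trans t1.symm))) hs1
  have hirange : iG.range = SuzukiTwo.Omega T := by
    refine Subgroup.eq_of_le_of_card_ge (by rintro _ ⟨c, rfl⟩; exact hLΩ _) ?_
    rw [S.card, ← Nat.card_congr (MonoidHom.ofInjective hiinj).toEquiv,
      Nat.card_congr Multiplicative.toAdd, card_Fx]
  have hLsurj : ∀ a ∈ SuzukiTwo.Omega T, ∃ c : Fx hF, L c = a := fun a ha => by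
    rw [← hirange] at ha
    obtain ⟨c, hc⟩ := ha
    exact ⟨c.toAdd, hc⟩
  -- the values
  obtain ⟨c, hc⟩ := hLsurj β (hcm g h)
  obtain ⟨d, hd⟩ := hLsurj (h * h) (hsq h)
  let Wg : Subgroup T :=
    { carrier := {t | cls t = 0 ∨ cls t = cls g ∨ cls t = cls (ψ g) ∨ cls t = cls g + cls (ψ g)}
      one_mem' := Or.inl rfl
      mul_mem' := fun {a b} ha hb => by
        have h2 : ∀ y : Additive (T ⧸ SuzukiTwo.Omega T), y + y = 0 := fun y => zmod2_add_self y
        have h3 : ∀ y z : Additive (T ⧸ SuzukiTwo.Omega T), y + (y + z) = z := fun y z => by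
          rw [← add_assoc, h2, zero_add]
        show cls (a * b) = 0 ∨ cls (a * b) = cls g ∨ cls (a * b) = cls (ψ g) ∨
          cls (a * b) = cls g + cls (ψ g)
        rw [cls_mul]
        rcases ha with ea | ea | ea | ea <;> rcases hb with eb | eb | eb | eb <;> rw [ea, eb] <;>
          simp [h2, h3, add_comm, add_left_comm]
      inv_mem' := fun {a} ha => by
        have e : cls a⁻¹ = cls a := by
          show cls a⁻¹ = cls a
          have : cls a⁻¹ + cls a = cls a + cls a := by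
            rw [← cls_mul, inv_mul_cancel, ← cls_mul]
            exact ((cls_zero (a * a)).2 (hsq a)).symm.trans rfl |>.symm ▸ rfl
          exact add_right_cancel this
        show cls a⁻¹ = 0 ∨ _
        rw [e]; exact ha }
  have hhW : h ∉ Wg := by
    rintro (e | e | e | e)
    exacts [hh0 e, hhg e, hhψ e, hhp e]
  have hnonzero : ∀ r : F, r ∈ Fx hF → r * r + r * (c : F) + (d : F) ≠ 0 := by
    intro r hr hzero
    obtain ⟨y, hyW, hy2, hyc⟩ : ∃ y ∈ Wg, (∀ e : Fx hF, (e : F) = r * r → L e = y * y) ∧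
        ∀ e : Fx hF, (e : F) = r * c → L e = ⁅y, h⁆ := by
      rcases hroot r hr with rfl | rfl | rfl | rfl
      · exact ⟨1, one_mem _, fun e he => by rw [L0 (by rw [he, mul_zero]), one_mul],
          fun e he => by rw [L0 (by rw [he, zero_mul]), commutatorElement_one_left]⟩
      · refine ⟨g, Or.inr (Or.inl rfl), fun e he => L1 (by rw [he, one_mul]), fun e he => ?_⟩
        rw [show e = c from Subtype.ext (by rw [he, one_mul]), hc]
      · refine ⟨g * ψ g, mul_mem (Or.inr (Or.inl rfl)) (Or.inr (Or.inr (Or.inl rfl))), fun e he => ?_,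
          fun e he => ?_⟩
        · rw [D.sq_mul hne, hsym, hline, mul_one, ← map_mul, ← hs]
          exact L3 (by rw [he]; linear_combination ω * hω3)
        · rw [hLψ c e he, hc, hbl, hδ', ← hβ, ← mul_assoc, (hcm g h).2, one_mul]
      · refine ⟨ψ g, Or.inr (Or.inr (Or.inl rfl)), fun e he => ?_, fun e he => ?_⟩
        · rw [← map_mul]
          exact L2 (by rw [he]; ring)
        · rw [hδ']
          have e2 : L ⟨ω ^ 2 * c, by
              rw [mem_Fx, mul_pow, (mem_Fx hF).1 hω2F, (mem_Fx hF).1 c.2]⟩ = ψ β := by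
            rw [hLψ c _ rfl, hc]
          rw [hLψ ⟨ω ^ 2 * c, by
              rw [mem_Fx, mul_pow, (mem_Fx hF).1 hω2F, (mem_Fx hF).1 c.2]⟩ e
            (by rw [he]; linear_combination -(ω * (c : F)) * hω3), e2, hΩ3 β (hcm g h)]
    have hr2 : r * r ∈ Fx hF := by rw [mem_Fx, mul_pow, (mem_Fx hF).1 hr]
    have hrc : r * c ∈ Fx hF := by rw [mem_Fx, mul_pow, (mem_Fx hF).1 hr, (mem_Fx hF).1 c.2]
    have e1 : y * h * (y * h) = 1 := by
      rw [D.sq_mul hne, hsym, ← hy2 ⟨_, hr2⟩ rfl, ← hyc ⟨_, hrc⟩ rfl, ← hd, ← hLmul, ← hLmul]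
      refine L0 ?_
      show r * r + (d : F) + r * c = 0
      linear_combination hzero
    have hyh : y * h ∈ Wg := Or.inl ((cls_zero _).2 (S.mem_omega.2 e1))
    have := mul_mem (inv_mem hyW) hyh
    rw [inv_mul_cancel_left] at this
    exact hhW this
  have hc0 : (c : F) ≠ 0 := fun e => by
    obtain ⟨r, hr, hrr⟩ := U3Sylow.fixed_sq_surj hF (c := (d : F)) d.2
    refine hnonzero r hr ?_
    rw [hrr, e, mul_zero, add_zero, CharTwo.add_self_eq_zero]
  -- the element of the field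
  obtain ⟨z₀, hz₀⟩ := AutPSU.exists_trace hF ((mem_Fx hF).1 c.2)
  obtain ⟨z, hzc, hzd⟩ : ∃ z : F, z + z ^ 4 = c ∧ N 4 z = d := by
    have hNz : N 4 z₀ ∈ Fx hF := N_mem hF z₀
    have key : ∀ r, r ∈ Fx hF → N 4 (z₀ + r) = r * r + r * c + N 4 z₀ ∧
        (z₀ + r) + (z₀ + r) ^ 4 = c := fun r hr => by
      refine ⟨?_, ?_⟩
      · simp only [N, Herm.conj_add hF, (mem_Fx hF).1 hr]
        linear_combination r * hz₀
      · rw [Herm.conj_add hF, (mem_Fx hF).1 hr]
        linear_combination hz₀ + h2F * r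
    have hne0 : ∀ r, r ∈ Fx hF → r * r + r * c + N 4 z₀ ≠ 0 := fun r hr e => by
      rw [← (key r hr).1] at e
      have e' : z₀ + r = 0 := (mul_eq_zero.1 e).elim id (fun e => eq_zero_of_pow_eq_zero e)
      exact hc0 (by rw [← (key r hr).2, e', zero_pow (by norm_num), add_zero])
    have hsc : ∀ x ∈ Fx hF, (∀ r, r ∈ Fx hF → r * r + r * c + x ≠ 0) →
        (x / ((c : F) * c)) ^ 2 + x / ((c : F) * c) + 1 = 0 := fun x hx hne1 => by
      have hu : x / ((c : F) * c) ∈ Fx hF := by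
        rw [mem_Fx, div_pow, mul_pow, (mem_Fx hF).1 hx, (mem_Fx hF).1 c.2]
      have hx' : x = x / ((c : F) * c) * ((c : F) * c) := (div_mul_cancel₀ _ (mul_ne_zero hc0 hc0)).symm
      rcases hroot _ hu with e | e | e | e
      · exfalso
        refine hne1 0 (zero_mem _) ?_
        rw [hx', e]; ring
      · exfalso
        refine hne1 (c * ω) (by rw [mem_Fx, mul_pow, (mem_Fx hF).1 c.2, (mem_Fx hF).1 hωF]) ?_
        rw [hx', e]
        linear_combination ((c : F) * c) * hωq
      · rw [e]; linear_combination hωq + ω * hω3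
      · rw [e]; exact hωq
    have hu := hsc d d.2 hnonzero
    have hv := hsc _ hNz hne0
    set u := (d : F) / ((c : F) * c) with hu'
    set v := N 4 z₀ / ((c : F) * c) with hv'
    have hd' : (d : F) = u * ((c : F) * c) := (div_mul_cancel₀ _ (mul_ne_zero hc0 hc0)).symm
    have hn' : N 4 z₀ = v * ((c : F) * c) := (div_mul_cancel₀ _ (mul_ne_zero hc0 hc0)).symm
    have huv : (u + v) * (u + v + 1) = 0 := by linear_combination hu + hv + h2F * (u * v - 1)
    rcases mul_eq_zero.1 huv with e | e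
    · refine ⟨z₀, hz₀, ?_⟩
      rw [hn', hd', U3Sylow.eq_of_add_eq_zero e]
    · have hr : (c : F) * ω ∈ Fx hF := by
        rw [mem_Fx, mul_pow, (mem_Fx hF).1 c.2, (mem_Fx hF).1 hωF]
      refine ⟨z₀ + c * ω, (key _ hr).2, ?_⟩
      rw [(key _ hr).1, hn', hd']
      linear_combination ((c : F) * c) * hωq + ((c : F) * c) * e - h2F * (((c : F) * c) * (u + 1))
  -- coordinates
  letI : Algebra (ZMod 2) F := ZMod.algebra F 2
  have hbF := ι_bij (W := F) (by rw [Nat.card_eq_fintype_card, hF]; norm_num)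
    (AddMonoidHom.mulLeft ω) (fun x => by
      show ω * (ω * (ω * x)) = x
      linear_combination x * hω3)
    (fun x hx => by
      have hx' : ω * x = x := hx
      have : (ω - 1) * x = 0 := by linear_combination hx'
      exact (mul_eq_zero.1 this).resolve_left (sub_ne_zero.2 hω1))
    (w := 1) (v := z) one_ne_zero (by
      have hz : z ∉ Fx hF := fun hz => hc0 (by
        rw [← hzc, (mem_Fx hF).1 hz, CharTwo.add_self_eq_zero])
      refine ⟨fun e => hz (e ▸ zero_mem _), fun e => hz (e ▸ h1F), fun e => hz ?_, fun e => hz ?_⟩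
      · rw [e]; show ω * 1 ∈ Fx hF; rw [mul_one]; exact hωF
      · rw [e]; show 1 + ω * 1 ∈ Fx hF; rw [mul_one]; exact add_mem h1F hωF)
  have hbW := ι_bij (W := Additive (T ⧸ SuzukiTwo.Omega T))
    (by rw [← Nat.card_congr Additive.ofMul, hW]) TW hTW3 hTWfix (w := cls g) (v := cls h)
    (fun e => hg ((cls_zero g).1 e)) ⟨hh0, hhg, hhψ, hhp⟩
  let eF : (Fin 4 → ZMod 2) ≃+ F := AddEquiv.ofBijective
    (AddMonoidHom.mk' (fun a => a 0 • (1 : F) + a 1 • (AddMonoidHom.mulLeft ω) 1 + a 2 • z +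
      a 3 • (AddMonoidHom.mulLeft ω) z) fun a b => by simp only [Pi.add_apply, add_smul]; abel) hbF
  let eW : (Fin 4 → ZMod 2) ≃+ Additive (T ⧸ SuzukiTwo.Omega T) := AddEquiv.ofBijective
    (AddMonoidHom.mk' (fun a => a 0 • cls g + a 1 • TW (cls g) + a 2 • cls h + a 3 • TW (cls h))
      fun a b => by simp only [Pi.add_apply, add_smul]; abel) hbW
  let ρ : Additive (T ⧸ SuzukiTwo.Omega T) ≃+ F := eW.symm.trans eF
  let p : T → F := fun x => ρ (cls x)
  have hp_mul : ∀ x y, p (x * y) = p x + p y := fun x y => by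
    show ρ _ = _
    rw [cls_mul, map_add]
  have hp0 : ∀ x, p x = 0 ↔ x ∈ SuzukiTwo.Omega T := fun x =>
    (map_eq_zero_iff ρ ρ.injective).trans (cls_zero x)
  have hev : ∀ a, ρ (eW a) = eF a := fun a => congrArg eF (eW.symm_apply_apply a)
  have pg : p g = 1 := by
    have e : eW ![1, 0, 0, 0] = cls g := by
      simp [eW, hTW]
    show ρ (cls g) = _
    rw [← e, hev]
    simp [eF]
  have pψg : p (ψ g) = ω := by
    have e : eW ![0, 1, 0, 0] = cls (ψ g) := by
      simp [eW, hTW]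
    show ρ (cls (ψ g)) = _
    rw [← e, hev]
    simp [eF]
  have ph : p h = z := by
    have e : eW ![0, 0, 1, 0] = cls h := by
      simp [eW, hTW]
    show ρ (cls h) = _
    rw [← e, hev]
    simp [eF]
  have pψh : p (ψ h) = ω * z := by
    have e : eW ![0, 0, 0, 1] = cls (ψ h) := by
      simp [eW, hTW]
    show ρ (cls (ψ h)) = _
    rw [← e, hev]
    simp [eF]
  have hgen : ∀ U : Subgroup T, SuzukiTwo.Omega T ≤ U → g ∈ U → ψ g ∈ U → h ∈ U → ψ h ∈ U → ∀ x, x ∈ U := by
    intro U hΩU hgU hψgU hhU hψhU x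
    obtain ⟨a, ha⟩ := eW.surjective (cls x)
    have hsm : ∀ (b : ZMod 2) (y : T), y ∈ U → ∃ y' ∈ U, b • cls y = cls y' := fun b y hy => by
      rcases zmod2_cases b with rfl | rfl
      · exact ⟨1, one_mem U, zero_smul _ _⟩
      · exact ⟨y, hy, one_smul _ _⟩
    obtain ⟨y0, hy0, e0⟩ := hsm (a 0) g hgU
    obtain ⟨y1, hy1, e1⟩ := hsm (a 1) (ψ g) hψgU
    obtain ⟨y2, hy2, e2⟩ := hsm (a 2) h hhU
    obtain ⟨y3, hy3, e3⟩ := hsm (a 3) (ψ h) hψhU
    have he : cls (y0 * y1 * y2 * y3) = cls x := by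
      rw [cls_mul, cls_mul, cls_mul, ← e0, ← e1, ← e2, ← e3, ← ha]
      rfl
    have hy : y0 * y1 * y2 * y3 ∈ U := mul_mem (mul_mem (mul_mem hy0 hy1) hy2) hy3
    have := mul_mem hy (hΩU (QuotientGroup.eq.1 he))
    rwa [mul_inv_cancel_left] at this
  have hLc : ∀ a b : Fx hF, (a : F) = b → L a = L b := fun a b e => congrArg L (Subtype.ext e)
  -- commutators
  let Bp : T → T → Fx hF := fun x y => ⟨B 4 (p x) (p y), U3Sylow.B_mem hF _ _⟩
  have hBp : ∀ x y, (Bp x y : F) = p x * p y ^ 4 + p y * p x ^ 4 := fun _ _ => rfl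
  let C : T → Subgroup T := fun y =>
    { carrier := {x | ⁅x, y⁆ = L (Bp x y)}
      one_mem' := by
        show ⁅(1 : T), y⁆ = _
        rw [commutatorElement_one_left, L0]
        rw [hBp, (hp0 1).2 (one_mem _)]
        simp [Herm.conj_zero hF]
      mul_mem' := fun {a b} ha hb => by
        show ⁅a * b, y⁆ = _
        rw [hbl, ha, hb, ← hLmul]
        refine hLc _ _ ?_
        rw [AddSubgroup.coe_add, hBp, hBp, hBp, hp_mul, Herm.conj_add hF]
        ring
      inv_mem' := fun {a} ha => by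
        show ⁅a⁻¹, y⁆ = _
        have e1 : a⁻¹ = a * (a * a)⁻¹ := by group
        have e2 : p a⁻¹ = p a := by
          have h' := hp_mul a a⁻¹
          rw [mul_inv_cancel, (hp0 1).2 (one_mem _)] at h'
          exact (U3Sylow.eq_of_add_eq_zero h'.symm).symm
        rw [e1, hbl, hΩc (inv_mem (hsq a)), mul_one, ha]
        exact hLc _ _ (by rw [hBp, hBp, ← e1, e2]) }
  have hCmem : ∀ x y, x ∈ C y ↔ ⁅x, y⁆ = L (Bp x y) := fun _ _ => Iff.rfl
  have hCΩ : ∀ y, SuzukiTwo.Omega T ≤ C y := fun y x hx => by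
    rw [hCmem, hΩc hx, L0]
    rw [hBp, (hp0 x).2 hx]
    simp [Herm.conj_zero hF]
  have hCsym : ∀ x y, x ∈ C y → y ∈ C x := fun x y hxy => by
    rw [hCmem] at hxy ⊢
    rw [hsym, hxy]
    exact hLc _ _ (by rw [hBp, hBp]; ring)
  have hCself : ∀ x, x ∈ C x := fun x => by
    rw [hCmem, commutatorElement_self, L0]
    rw [hBp, CharTwo.add_self_eq_zero]
  have hzc' : z + z ^ 4 = (c : F) := hzc
  have m1 : g ∈ C (ψ g) := by
    rw [hCmem, hline, L0]
    rw [hBp, pg, pψg]
    linear_combination ω * hω3 + h2F * ω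
  have m2 : g ∈ C h := by
    rw [hCmem, ← hβ, ← hc]
    exact hLc _ _ (by rw [hBp, pg, ph]; linear_combination -hzc')
  have hLω : ∀ e : Fx hF, (e : F) = ω * c → L e = β * ψ β := fun e he => by
    have hmem : ω ^ 2 * (c : F) ∈ Fx hF := by
      rw [mem_Fx, mul_pow, (mem_Fx hF).1 hω2F, (mem_Fx hF).1 c.2]
    rw [hLψ ⟨_, hmem⟩ e (by rw [he]; linear_combination -(ω * (c : F)) * hω3),
      hLψ c ⟨_, hmem⟩ rfl, hc, hΩ3 β (hcm g h)]
  have m3 : g ∈ C (ψ h) := by
    rw [hCmem, hδ]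
    exact (hLω _ (by rw [hBp, pg, pψh]; linear_combination ω * hzc' + (ω * z ^ 4) * hω3)).symm
  have m4 : ψ g ∈ C h := by
    rw [hCmem, hδ']
    exact (hLω _ (by rw [hBp, pψg, ph]; linear_combination ω * hzc' + (ω * z) * hω3)).symm
  have m5 : ψ g ∈ C (ψ h) := by
    rw [hCmem, hδ'', ← hc, ← hLψ c _]
    rw [hBp, pψg, pψh]
    linear_combination ω ^ 2 * hzc' + (ω ^ 2 * z + ω ^ 2 * z ^ 4) * hω3
  have m6 : h ∈ C (ψ h) := by
    rw [hCmem, hline, L0]
    rw [hBp, ph, pψh]
    linear_combination (ω * z ^ 5) * hω3 + h2F * (ω * z ^ 5)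
  have hCall : ∀ x y, x ∈ C y := by
    intro x y
    refine hgen (C y) (hCΩ y) ?_ ?_ ?_ ?_ x <;> apply hCsym <;>
      refine hgen _ (hCΩ _) ?_ ?_ ?_ ?_ y
    exacts [hCself g, hCsym _ _ m1, hCsym _ _ m2, hCsym _ _ m3,
      m1, hCself _, hCsym _ _ m4, hCsym _ _ m5,
      m2, m4, hCself _, hCsym _ _ m6,
      m3, m5, m6, hCself _]
  -- squares
  let Sq : T → Fx hF := fun x => ⟨N 4 (p x), N_mem hF _⟩
  have hSq : ∀ x, (Sq x : F) = p x * p x ^ 4 := fun _ => rfl
  let Q : Subgroup T :=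
    { carrier := {x | x * x = L (Sq x)}
      one_mem' := by
        show (1 : T) * 1 = _
        rw [one_mul, L0]
        rw [hSq, (hp0 1).2 (one_mem _), zero_mul]
      mul_mem' := fun {a b} ha hb => by
        show a * b * (a * b) = _
        rw [D.sq_mul hne, hsym, ha, hb, (hCmem a b).1 (hCall a b), ← hLmul, ← hLmul]
        refine hLc _ _ ?_
        rw [AddSubgroup.coe_add, AddSubgroup.coe_add, hSq, hSq, hSq, hBp, hp_mul,
          Herm.conj_add hF]
        ring
      inv_mem' := fun {a} ha => by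
        show a⁻¹ * a⁻¹ = _
        rw [← mul_inv_rev, inv_eq_of_mul_eq_one_right (hsq a).2, ha]
        refine hLc _ _ ?_
        have h' := hp_mul a a⁻¹
        rw [mul_inv_cancel, (hp0 1).2 (one_mem _)] at h'
        rw [hSq, hSq, ← U3Sylow.eq_of_add_eq_zero h'.symm] }
  have hQall : ∀ x, x * x = L (Sq x) := by
    refine fun x => hgen Q (fun a ha => ?_) ?_ ?_ ?_ ?_ x
    · show a * a = _
      rw [ha.2, L0]
      rw [hSq, (hp0 a).2 ha, zero_mul]
    · show g * g = _
      rw [L1]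
      rw [hSq, pg]; ring
    · show ψ g * ψ g = _
      rw [L2, ← map_mul]
      rw [hSq, pψg]; linear_combination ω ^ 2 * hω3
    · show h * h = _
      rw [← hd]
      exact hLc _ _ (by rw [hSq, ph]; exact hzd.symm)
    · show ψ h * ψ h = _
      rw [← map_mul, ← hd, ← hLψ d]
      rw [hSq, pψh, ← hzd, N]
      linear_combination (ω ^ 2 * z ^ 5) * hω3
  -- the isomorphism
  let πG : T →* Multiplicative F :=
    MonoidHom.mk' (fun x => Multiplicative.ofAdd (p x)) fun x y => by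
      rw [hp_mul, ofAdd_add]
  haveI := HP.finite hF
  let iP : Multiplicative (Fx hF) →* P :=
    { toFun := fun e => ((HP.centerEquiv hF).symm e.toAdd : P)
      map_one' := by
        refine HP.ext ?_ ?_
        · rw [HP.fs_one]; exact (HP.mem_center hF).1 (SetLike.coe_mem _)
        · have h' := congrArg Subtype.val ((HP.centerEquiv hF).apply_symm_apply 0)
          rw [HP.sn_one hF]
          exact h'
      map_mul' := fun a b => by
        refine HP.ext ?_ ?_
        · rw [HP.fs_mul, (HP.mem_center hF).1 (SetLike.coe_mem _),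
            (HP.mem_center hF).1 (SetLike.coe_mem _), (HP.mem_center hF).1 (SetLike.coe_mem _),
            add_zero]
        · rw [HP.sn_mul, (HP.mem_center hF).1 ((HP.centerEquiv hF).symm b.toAdd).2, zero_mul,
            add_zero]
          have h1 := congrArg Subtype.val ((HP.centerEquiv hF).apply_symm_apply (a * b).toAdd)
          have h2 := congrArg Subtype.val ((HP.centerEquiv hF).apply_symm_apply a.toAdd)
          have h3 := congrArg Subtype.val ((HP.centerEquiv hF).apply_symm_apply b.toAdd)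
          exact h1.trans (congrArg₂ (· + ·) h2 h3).symm }
  refine SuzukiTwo.nonempty_mulEquiv_of_squares (M := Multiplicative F)
    (V := Multiplicative (Fx hF)) πG HP.fsHom iG iP ?_ ?_ hiinj ?_ ?_ ?_ ?_ ?_
    (fun m => Multiplicative.ofAdd ⟨N 4 m.toAdd, N_mem hF _⟩) ?_ ?_
  · intro m
    obtain ⟨y, hy⟩ := ρ.surjective m.toAdd
    obtain ⟨x, rfl⟩ := hcls y
    exact ⟨x, congrArg Multiplicative.ofAdd hy⟩
  · intro m
    obtain ⟨x, hx⟩ := HP.fs_surj hF m.toAdd
    exact ⟨x, congrArg Multiplicative.ofAdd hx⟩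
  · intro a b e
    exact (HP.centerEquiv hF).symm.injective (Subtype.ext e)
  · intro x
    rw [hirange, ← hp0]
    exact Multiplicative.ofAdd.apply_eq_iff_eq
  · intro x
    rw [← MonoidHom.mem_ker, HP.ker_fsHom hF]
    constructor
    · intro hx
      exact ⟨Multiplicative.ofAdd (HP.centerEquiv hF ⟨x, hx⟩),
        congrArg Subtype.val ((HP.centerEquiv hF).symm_apply_apply ⟨x, hx⟩)⟩
    · rintro ⟨e, rfl⟩
      exact SetLike.coe_mem _
  · exact fun e x => (hcen (hLΩ _) x).symm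
  · exact fun e x => (Subgroup.mem_center_iff.1 (SetLike.coe_mem _) x).symm
  · exact hQall
  · intro x
    have hx : x * x ∈ Subgroup.center P := (HP.mem_center hF).2 (HP.fs_sq hF x)
    have e : HP.centerEquiv hF ⟨x * x, hx⟩ = ⟨N 4 (HP.fs x), N_mem hF _⟩ :=
      Subtype.ext (HP.sn_sq hF x)
    show x * x = (((HP.centerEquiv hF).symm ⟨N 4 (HP.fs x), N_mem hF _⟩ : Subgroup.center P) : P)
    rw [← e, Equiv.symm_apply_apply]

end Setup

end Cfsg.Agent.Lib.TwoRankTrans
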